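import Cfsg.Agent.RankOne.Basic
import Cfsg.Agent.S5025
import Cfsg.Agent.S5028

/-!
Sets of abstract root subgroups: elementary lemmas, members inside a rank one group, and the invariance of
the components of the graph of rank one pairs under conjugation.
-/

set_option autoImplicit false

open Cfsg CfsgLib.RankOne
open scoped commutatorElement

namespace CfsgLib.RootGroups

variable {G : Type*} [Group G] {S : Set (Subgroup G)} {A A' B C D E : Subgroup G}

lemma mul_comm_of_mem (hS : IsRootSubgroupSet S) (hA : A ∈ S) {x y : G} (hx : x ∈ A) (hy : y ∈ A) :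
    x * y = y * x := by
  haveI := hS.commutative A hA
  exact congrArg Subtype.val (mul_comm' (⟨x, hx⟩ : A) ⟨y, hy⟩)

lemma commutator_eq_bot_iff : ⁅A, B⁆ = ⊥ ↔ ∀ a ∈ A, ∀ b ∈ B, a * b = b * a := by
  rw [Subgroup.commutator_eq_bot_iff_le_centralizer]
  exact ⟨fun h a ha b hb => (Subgroup.mem_centralizer_iff.1 (h ha) b hb).symm,
    fun h a ha => Subgroup.mem_centralizer_iff.2 fun b hb => (h a ha b hb).symm⟩

lemma conj_ne_one {g x : G} (hx : x ≠ 1) : g * x * g⁻¹ ≠ 1 := fun e => hx (conj_eq_one_iff.1 e)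

lemma commutator_mem {a b : G} (ha : a ∈ A) (hb : b ∈ B) : a * b * a⁻¹ * b⁻¹ ∈ ⁅A, B⁆ :=
  Subgroup.commutator_mem_commutator ha hb

lemma exists_nonid (hS : IsRootSubgroupSet S) (hA : A ∈ S) : ∃ a ∈ A, a ≠ 1 := by
  obtain ⟨⟨a, ha⟩, h⟩ := Subgroup.ne_bot_iff_exists_ne_one.1 (hS.ne_bot A hA)
  exact ⟨a, ha, fun e => h (Subtype.ext e)⟩

lemma exists_partner (hA : ¬ IsIsolatedIn (FAdj S) S A) (hAS : A ∈ S) :
    ∃ E ∈ S, IsRankOnePair A E := by
  by_contra hne
  push Not at hne
  exact hA ⟨hAS, fun E => ⟨fun h => hne E h.2.1 h.2.2, fun h => hne E h.1 (RankOnePair_symm h.2.2)⟩⟩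

lemma not_isolated (hA : A ∈ S) (hB : B ∈ S) (h : IsRankOnePair A B) : ¬ IsIsolatedIn (FAdj S) S A :=
  fun hi => (hi.2 B).1 ⟨hA, hB, h⟩

/-- A member meeting a non-isolated member nontrivially is equal to it. -/
lemma eq_of_mem (hS : IsRootSubgroupSet S) (hA : A ∈ S) (hni : ¬ IsIsolatedIn (FAdj S) S A) (hB : B ∈ S)
    {x : G} (hxA : x ∈ A) (hxB : x ∈ B) (hx : x ≠ 1) : A = B :=
  (Cfsg.Agent.S5028.meet hS hni hA B hB).resolve_left fun h => hx <| by
    have : x ∈ A ⊓ B := ⟨hxA, hxB⟩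
    rwa [h, Subgroup.mem_bot] at this

lemma rootCommutatorCase_symm (h : RootCommutatorCase S A B) : RootCommutatorCase S B A := by
  have e : ∀ X : Set G, Subgroup.closure ((fun z : G => z⁻¹) '' X) = Subgroup.closure X := fun X => by
    rw [Set.image_inv_eq_inv, Subgroup.closure_inv]
  obtain ⟨hS, hc, hl, hr⟩ := h
  rw [RootCommutatorCase, Subgroup.commutator_comm B A, sup_comm B A]
  refine ⟨hS, hc, fun b hb hb1 => ?_, fun a ha ha1 => ?_⟩
  · rw [← hr b hb hb1, ← e ((fun a : G => a * b * a⁻¹ * b⁻¹) '' _), Set.image_image]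
    congr 2
    funext x
    group
  · rw [← hl a ha ha1, ← e ((fun b : G => a * b * a⁻¹ * b⁻¹) '' _), Set.image_image]
    congr 2
    funext x
    group

/-- Conjugates under a member in the commutator case commute. -/
lemma conj_commute_of_case (h : RootCommutatorCase S A B) (hS : IsRootSubgroupSet S) (hB : B ∈ S) {a b b' : G}
    (ha : a ∈ A) (hb : b ∈ B) (hb' : b' ∈ B) : a * b * a⁻¹ * b' = b' * (a * b * a⁻¹) := by
  have h1 : Commute (a * b * a⁻¹ * b⁻¹) b' := h.2.1 _ (commutator_mem ha hb) b' (Subgroup.mem_sup_right hb')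
  have h2 : Commute (a * b * a⁻¹ * b⁻¹ * b) b' := h1.mul_left (mul_comm_of_mem hS hB hb hb')
  simpa using h2.eq

/-- Conjugates of `B` under a member not forming a rank one pair with it commute with `B`. -/
lemma conj_commute (hS : IsRootSubgroupSet S) (hA : A ∈ S) (hB : B ∈ S) (h : ¬ IsRankOnePair A B)
    {a b b' : G} (ha : a ∈ A) (hb : b ∈ B) (hb' : b' ∈ B) : a * b * a⁻¹ * b' = b' * (a * b * a⁻¹) := by
  rcases hS.pair A hA B hB with hc | hr | hcc
  · rw [commutator_eq_bot_iff.1 hc a ha b hb, mul_inv_cancel_right]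
    exact mul_comm_of_mem hS hB hb hb'
  · exact absurd hr h
  · exact conj_commute_of_case hcc hS hB ha hb hb'

lemma conjBy_ne (h : IsRankOnePair A B) {a : G} (ha : a ∈ A) (ha1 : a ≠ 1) : conjBy B a ≠ B :=
  fun e => ha1 (eq_one_of_normalizes h ha e)

/-- In a rank one pair, conjugates by the other side never commute. -/
lemma not_conj_commute (h : IsRankOnePair A B) {a b b' : G} (ha : a ∈ A) (ha1 : a ≠ 1) (hb : b ∈ B)
    (hb1 : b ≠ 1) (hb' : b' ∈ B) (hb'1 : b' ≠ 1) : ¬ a * b * a⁻¹ * b' = b' * (a * b * a⁻¹) := fun hc =>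
  conjBy_ne h ha ha1 (eq_of_commute h (conj_mem_conjBy hb) hb' (conj_ne_one hb1) hb'1
    (conjBy_mem_unipotent (right_mem_unipotent h) (Subgroup.mem_sup_left ha)) (right_mem_unipotent h) hc)

lemma commutator_ne_bot (h : IsRankOnePair A B) : ⁅A, B⁆ ≠ ⊥ := by
  intro hc
  obtain ⟨a, ha, ha1⟩ := nonidentity_left h
  obtain ⟨b, hb, hb1⟩ := nonidentity_left (RankOnePair_symm h)
  exact h.ne (eq_of_commute h ha hb ha1 hb1 left_mem_unipotent (right_mem_unipotent h)
    (commutator_eq_bot_iff.1 hc a ha b hb))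

lemma not_case (hS : IsRootSubgroupSet S) (hB : B ∈ S) (h : IsRankOnePair A B) :
    ¬ RootCommutatorCase S A B := by
  intro hc
  obtain ⟨a, ha, ha1⟩ := nonidentity_left h
  obtain ⟨b, hb, hb1⟩ := nonidentity_left (RankOnePair_symm h)
  exact not_conj_commute h ha ha1 hb hb1 hb hb1 (conj_commute_of_case hc hS hB ha hb hb)

/-- Any two different unipotent subgroups of a rank one group form a rank one pair generating it. -/
lemma opp (h : IsRankOnePair A B) (hC : C ∈ unipotentSubgroups A B) (hD : D ∈ unipotentSubgroups A B)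
    (hne : C ≠ D) :
    IsRankOnePair C D ∧ C ⊔ D = A ⊔ B ∧ unipotentSubgroups C D = unipotentSubgroups A B := by
  obtain ⟨x, hx, e1, e2⟩ := two_transitive h A B C D left_mem_unipotent (right_mem_unipotent h) hC hD h.ne hne
  have hsup : C ⊔ D = A ⊔ B := by
    rw [← e1, ← e2, ← conjBy_sup]
    exact conjBy_eq_self_of_mem hx
  refine ⟨e1 ▸ e2 ▸ isRankOnePair_conj h x, hsup, ?_⟩
  ext F
  simp only [unipotentSubgroups, Set.mem_ofPred_eq, hsup]
  constructor
  · rintro ⟨y, hy, rfl⟩
    exact ⟨y * x, mul_mem hy hx, by rw [← e1, conjBy_conjBy]⟩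
  · rintro ⟨y, hy, rfl⟩
    exact ⟨y * x⁻¹, mul_mem hy (inv_mem hx), by rw [← e1, conjBy_conjBy, inv_mul_cancel_right]⟩

/-- A member lying in a rank one group is one of its unipotent subgroups or central in it. -/
lemma mem_unipotent_of_le (hS : IsRootSubgroupSet S) (hC : C ∈ S) (hD : D ∈ S) (hp : IsRankOnePair C D)
    (hE : E ∈ S) (hle : E ≤ C ⊔ D) :
    E ∈ unipotentSubgroups C D ∨ ∀ x ∈ E, ∀ y ∈ C ⊔ D, x * y = y * x := by
  by_cases h : IsRankOnePair E C ∨ IsRankOnePair E D
  · left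
    obtain ⟨e, he, he1⟩ := exists_nonid hS hE
    have key : ∀ F ∈ unipotentSubgroups C D, IsRankOnePair E F → E ∈ unipotentSubgroups C D := by
      intro F hF hEF
      obtain ⟨f, hf, -, hef⟩ := hEF.cond_left e he he1
      rw [conjBy_eq_iff, inv_inv] at hef
      rw [hef]
      exact conjBy_mem_unipotent (conjBy_mem_unipotent hF (inv_mem (hle he))) (le_sup_of_mem_unipotent hF hf)
    rcases h with h | h
    · exact key C left_mem_unipotent h
    · exact key D (right_mem_unipotent hp) h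
  · right
    push Not at h
    have key : ∀ F ∈ S, F ∈ unipotentSubgroups C D → ¬ IsIsolatedIn (FAdj S) S F → ¬ IsRankOnePair E F →
        ⁅E, F⁆ = ⊥ := by
      intro F hF hFU hni hnr
      rcases hS.pair E hE F hF with hc | hr | hcc
      · exact hc
      · exact absurd hr hnr
      exfalso
      obtain ⟨f₀, hf₀, hf₀1⟩ := exists_nonid hS hF
      have hfix : ∀ e ∈ E, conjBy F e = F := fun e he => eq_of_commute hp (conj_mem_conjBy hf₀) hf₀
        (conj_ne_one hf₀1) hf₀1 (conjBy_mem_unipotent hFU (hle he)) hFU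
        (conj_commute_of_case hcc hS hF he hf₀ hf₀)
      have hle' : ⁅E, F⁆ ≤ F := by
        rw [Subgroup.commutator_le]
        intro e he f hf
        exact F.mul_mem (hfix e he ▸ conj_mem_conjBy hf) (F.inv_mem hf)
      obtain ⟨x, hx, hx1⟩ := exists_nonid hS hcc.1
      have he' : F = ⁅E, F⁆ := eq_of_mem hS hF hni hcc.1 (hle' hx) hx hx1
      apply hS.ne_bot _ hcc.1
      rw [commutator_eq_bot_iff]
      intro e he f hf
      exact (hcc.2.1 f (he' ▸ hf) e (Subgroup.mem_sup_left he)).symm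
    have h1 := key C hC left_mem_unipotent (not_isolated hC hD hp) h.1
    have h2 := key D hD (right_mem_unipotent hp) (not_isolated hD hC (RankOnePair_symm hp)) h.2
    rw [commutator_eq_bot_iff] at h1 h2
    intro x hx y hy
    have : C ⊔ D ≤ Subgroup.centralizer {x} := sup_le
      (fun c hc => Subgroup.mem_centralizer_singleton_iff.2 (h1 x hx c hc).symm)
      (fun d hd => Subgroup.mem_centralizer_singleton_iff.2 (h2 x hx d hd).symm)
    exact (Subgroup.mem_centralizer_singleton_iff.1 (this hy)).symm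

/-- The line lemma: if `B` commutes with `A` and the member `C` contains `ab`, then `B` or `C` forms a rank one
pair with every rank one partner of `A`. -/
lemma rankOne_or (hS : IsRootSubgroupSet S) (hA : A ∈ S) (hA' : A' ∈ S) (hB : B ∈ S) (hC : C ∈ S)
    (hp : IsRankOnePair A A') {a b : G} (ha : a ∈ A) (ha1 : a ≠ 1) (hb : b ∈ B) (hab : a * b ∈ C) :
    IsRankOnePair B A' ∨ IsRankOnePair C A' := by
  by_contra hcon
  push Not at hcon
  obtain ⟨a', ha', ha'1⟩ := nonidentity_left (RankOnePair_symm hp)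
  set e := b * a' * b⁻¹ with hedef
  set f := a⁻¹ * a' * a with hfdef
  have hF : conjBy A' a⁻¹ ∈ S := hS.conj_mem A' hA' _
  have hFU : conjBy A' a⁻¹ ∈ unipotentSubgroups A A' :=
    conjBy_mem_unipotent (right_mem_unipotent hp) (inv_mem (Subgroup.mem_sup_left ha))
  have hfF : f ∈ conjBy A' a⁻¹ := mem_conjBy.2 (by rw [hfdef]; simpa [mul_assoc] using ha')
  have hf1 : f ≠ 1 := fun h => ha'1 <| by
    calc a' = a * f * a⁻¹ := by rw [hfdef]; group
      _ = 1 := by rw [h]; group
  have hFne : conjBy A' a⁻¹ ≠ A' := conjBy_ne hp (A.inv_mem ha) (inv_ne_one.2 ha1)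
  have hec : Commute e a' := conj_commute hS hB hA' hcon.1 hb ha' ha'
  have hfe : Commute e f := by
    have h1 : Commute (a * b * a' * (a * b)⁻¹) a' := conj_commute hS hC hA' hcon.2 hab ha' ha'
    have h2 := h1.map (MulAut.conj a⁻¹).toMonoidHom
    simp only [MulEquiv.coe_toMonoidHom, MulAut.conj_apply, inv_inv] at h2
    convert h2 using 1 <;> simp [hedef, hfdef, mul_assoc]
  rcases hS.pair B hB A' hA' with hc | hr | hcc
  · have he : e = a' := by rw [hedef, commutator_eq_bot_iff.1 hc b hb a' ha', mul_inv_cancel_right]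
    rw [he] at hfe
    exact hFne (eq_of_commute hp hfF ha' hf1 ha'1 hFU (right_mem_unipotent hp) hfe.symm.eq)
  · exact hcon.1 hr
  set M := ⁅B, A'⁆ with hM
  set m := b * a' * b⁻¹ * a'⁻¹ with hmdef
  have hmM : m ∈ M := commutator_mem hb ha'
  have hema : e = m * a' := by rw [hedef, hmdef, inv_mul_cancel_right]
  have hconj : m⁻¹ * f * m = a' * f * a'⁻¹ := by
    have h1 : m * a' * f = f * (m * a') := by rw [← hema]; exact hfe.eq
    calc m⁻¹ * f * m = m⁻¹ * (f * (m * a')) * a'⁻¹ := by group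
      _ = a' * f * a'⁻¹ := by rw [← h1]; group
  have hAF : IsRankOnePair A' (conjBy A' a⁻¹) :=
    (opp hp (right_mem_unipotent hp) hFU hFne.symm).1
  by_cases hr : IsRankOnePair M (conjBy A' a⁻¹)
  swap
  · have h1 := conj_commute hS hcc.1 hF hr (M.inv_mem hmM) hfF hfF
    rw [inv_inv, hconj] at h1
    exact not_conj_commute hAF ha' ha'1 hfF hf1 hfF hf1 h1
  set F := conjBy A' a⁻¹ with hFdef
  have hG1 : a' * f * a'⁻¹ ∈ conjBy F a' := conj_mem_conjBy hfF
  have hG2 : a' * f * a'⁻¹ ∈ conjBy F m⁻¹ := by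
    rw [← hconj]
    have := conj_mem_conjBy (g := m⁻¹) hfF
    rwa [inv_inv] at this
  have hG'U : conjBy F a' ∈ unipotentSubgroups A A' := conjBy_mem_unipotent hFU (Subgroup.mem_sup_right ha')
  have hni : ¬ IsIsolatedIn (FAdj S) S (conjBy F a') :=
    not_isolated (hS.conj_mem F hF a') (hS.conj_mem A' hA' a')
      (isRankOnePair_conj (RankOnePair_symm hAF) a')
  have heq : conjBy F a' = conjBy F m⁻¹ :=
    eq_of_mem hS (hS.conj_mem F hF a') hni (hS.conj_mem F hF m⁻¹) hG1 hG2 (conj_ne_one hf1)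
  have hne' : F ≠ conjBy F a' := (conjBy_ne hAF ha' ha'1).symm
  have hG'U2 : conjBy F a' ∈ unipotentSubgroups F M := by
    rw [heq]
    exact conjBy_mem_unipotent left_mem_unipotent (inv_mem (Subgroup.mem_sup_right hmM))
  have hrs := RankOnePair_symm hr
  have hU : unipotentSubgroups F M = unipotentSubgroups A A' := by
    rw [← (opp hrs left_mem_unipotent hG'U2 hne').2.2, (opp hp hFU hG'U hne').2.2]
  obtain ⟨m₀, hm₀, hm₀1⟩ := exists_nonid hS hcc.1
  have hMA : M = A' := eq_of_commute hp hm₀ ha' hm₀1 ha'1 (hU ▸ right_mem_unipotent hrs) (right_mem_unipotent hp)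
    (hcc.2.1 m₀ hm₀ a' (Subgroup.mem_sup_right ha'))
  apply hS.ne_bot M hcc.1
  rw [commutator_eq_bot_iff]
  intro x hx y hy
  exact (hcc.2.1 y (by rw [← hM, hMA]; exact hy) x (Subgroup.mem_sup_left hx)).symm

lemma fAdj_conj (hS : IsRootSubgroupSet S) (g : G) (h : FAdj S A B) : FAdj S (conjBy A g) (conjBy B g) :=
  ⟨hS.conj_mem A h.1 g, hS.conj_mem B h.2.1 g, isRankOnePair_conj h.2.2 g⟩

lemma reach_symm (h : Relation.ReflTransGen (FAdj S) A B) : Relation.ReflTransGen (FAdj S) B A := by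
  induction h with
  | refl => exact Relation.ReflTransGen.refl
  | tail _ hab ih => exact Relation.ReflTransGen.head ⟨hab.2.1, hab.1, RankOnePair_symm hab.2.2⟩ ih

lemma reach_conj (hS : IsRootSubgroupSet S) (g : G) (h : Relation.ReflTransGen (FAdj S) A B) :
    Relation.ReflTransGen (FAdj S) (conjBy A g) (conjBy B g) :=
  Relation.ReflTransGen.lift (fun X => conjBy X g) (fun _ _ => fAdj_conj hS g) _ _ h

lemma not_isolated_conj (hS : IsRootSubgroupSet S) (hA : A ∈ S) (hni : ¬ IsIsolatedIn (FAdj S) S A) (g : G) :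
    ¬ IsIsolatedIn (FAdj S) S (conjBy A g) := by
  obtain ⟨E, hE, hp⟩ := exists_partner hni hA
  exact not_isolated (hS.conj_mem A hA g) (hS.conj_mem E hE g) (isRankOnePair_conj hp g)

/-- A conjugate of a non-isolated member under a member lies in the same component. -/
lemma reach_conj_member (hS : IsRootSubgroupSet S) (hD : D ∈ S) (hni : ¬ IsIsolatedIn (FAdj S) S D)
    (hC : C ∈ S) {c : G} (hc : c ∈ C) : Relation.ReflTransGen (FAdj S) D (conjBy D c) := by
  by_cases hfix : conjBy D c = D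
  · rw [hfix]
  rcases hS.pair C hC D hD with hcom | hr | hcc
  · refine absurd (conjBy_eq_self_iff.2 (Subgroup.mem_normalizer_iff.2 fun y => ?_)) hfix
    rw [commutator_eq_bot_iff] at hcom
    constructor
    · intro hy; rwa [hcom c hc y hy, mul_inv_cancel_right]
    · intro hy
      have h1 := hcom c⁻¹ (C.inv_mem hc) _ hy
      have : y = c * y * c⁻¹ := by
        calc y = c⁻¹ * (c * y * c⁻¹) * c := by group
          _ = c * y * c⁻¹ := by rw [h1]; group
      rwa [this]
  · refine Relation.ReflTransGen.single ⟨hD, hS.conj_mem D hD c, ?_⟩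
    exact (opp hr (right_mem_unipotent hr)
      (conjBy_mem_unipotent (right_mem_unipotent hr) (Subgroup.mem_sup_left hc)) (Ne.symm hfix)).1
  obtain ⟨d, hd, hd1⟩ := exists_nonid hS hD
  set L := ⁅C, D⁆ with hL
  set l := c * d * c⁻¹ * d⁻¹ with hldef
  have hlL : l ∈ L := commutator_mem hc hd
  have hdl : d * l = c * d * c⁻¹ := by
    rw [← hcc.2.1 l hlL d (Subgroup.mem_sup_right hd), hldef, inv_mul_cancel_right]
  obtain ⟨E, hE, hp⟩ := exists_partner hni hD
  have hmem : d * l ∈ conjBy D c := hdl ▸ conj_mem_conjBy hd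
  rcases rankOne_or hS hD hE hcc.1 (hS.conj_mem D hD c) hp hd hd1 hlL hmem with h | h
  · have hDL : Relation.ReflTransGen (FAdj S) D L :=
      (Relation.ReflTransGen.single ⟨hD, hE, hp⟩).tail ⟨hE, hcc.1, RankOnePair_symm h⟩
    have hLfix : conjBy L c = L := conjBy_eq_self_iff.2 <| Subgroup.mem_normalizer_iff.2 fun y => by
      constructor
      · intro hy
        rwa [← hcc.2.1 y hy c (Subgroup.mem_sup_left hc), mul_inv_cancel_right]
      · intro hy
        have h1 : y = c * y * c⁻¹ := by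
          calc y = c⁻¹ * ((c * y * c⁻¹) * c) := by group
            _ = c⁻¹ * (c * (c * y * c⁻¹)) := by rw [hcc.2.1 _ hy c (Subgroup.mem_sup_left hc)]
            _ = _ := by group
        rwa [h1]
    have h2 := reach_conj hS c hDL
    rw [hLfix] at h2
    exact hDL.trans (reach_symm h2)
  · exact (Relation.ReflTransGen.single ⟨hD, hE, hp⟩).tail
      ⟨hE, hS.conj_mem D hD c, RankOnePair_symm h⟩

/-- Conjugation preserves each component with more than one member. -/
lemma reach_conj_self (hS : IsRootSubgroupSet S) (g : G) :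
    ∀ D ∈ S, ¬ IsIsolatedIn (FAdj S) S D → Relation.ReflTransGen (FAdj S) D (conjBy D g) := by
  have hg : g ∈ ⨆ C : S, (C : Subgroup G) := by
    rw [iSup_subtype'' S (fun C => C), hS.generates]
    exact Subgroup.mem_top g
  induction hg using Subgroup.iSup_induction' with
  | hp C x hx => exact fun D hD hni => reach_conj_member hS hD hni C.2 hx
  | h1 => intro D _ _; rw [conjBy_one]
  | hmul x y _ _ hx hy =>
    intro D hD hni
    rw [← conjBy_conjBy]
    exact (hy D hD hni).trans (hx _ (hS.conj_mem D hD y) (not_isolated_conj hS hD hni y))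

lemma componentOf_conj (hS : IsRootSubgroupSet S) (hD : D ∈ S) (hni : ¬ IsIsolatedIn (FAdj S) S D) (g : G) :
    conjBy D g ∈ componentOf (FAdj S) S D :=
  ⟨hS.conj_mem D hD g, reach_conj_self hS g D hD hni⟩

lemma componentOf_eq (hA : A ∈ S) (hB : B ∈ S) (h : Relation.ReflTransGen (FAdj S) A B) :
    componentOf (FAdj S) S A = componentOf (FAdj S) S B := by
  ext X
  exact ⟨fun hX => ⟨hX.1, (reach_symm h).trans hX.2⟩, fun hX => ⟨hX.1, h.trans hX.2⟩⟩

lemma not_isolated_of_component (hA2 : ∃ A₂ ∈ componentOf (FAdj S) S A, A₂ ≠ A) :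
    ¬ IsIsolatedIn (FAdj S) S A := by
  obtain ⟨A₂, ⟨-, h⟩, hne⟩ := hA2
  rcases Relation.ReflTransGen.cases_head h with e | ⟨E, hAE, -⟩
  · exact absurd e.symm hne
  · exact fun hi => (hi.2 E).1 hAE

end CfsgLib.RootGroups
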