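import Cfsg.Agent.RootGroups.Basic

/-!
The commutator case for two members of a set of abstract root subgroups.
-/

set_option autoImplicit false

open Cfsg CfsgLib.RankOne
open scoped commutatorElement

namespace CfsgLib.RootGroups

variable {G : Type*} [Group G] {S : Set (Subgroup G)} {A B C D : Subgroup G}

lemma conj_eq_self {g y : G} (h : g * y = y * g) : g * y * g⁻¹ = y := by rw [h, mul_inv_cancel_right]

lemma eq_of_conj_eq_self {g y : G} (h : g * y * g⁻¹ = y) : g * y = y * g := mul_inv_eq_iff_eq_mul.1 h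

/-- `A` normalises `⁅A, B⁆`. -/
lemma left_le_normalizer_commutator (A B : Subgroup G) : A ≤ Subgroup.normalizer ((⁅A, B⁆ : Subgroup G) : Set G) := by
  intro a ha
  have key : ∀ x ∈ A, ∀ z ∈ ⁅A, B⁆, x * z * x⁻¹ ∈ ⁅A, B⁆ := by
    intro x hx z hz
    have hle : ⁅A, B⁆ ≤ (⁅A, B⁆).comap (MulAut.conj x).toMonoidHom := by
      rw [Subgroup.commutator_le]
      intro a' ha' b hb
      show x * ⁅a', b⁆ * x⁻¹ ∈ ⁅A, B⁆
      have e : x * ⁅a', b⁆ * x⁻¹ = (x * a' * b * (x * a')⁻¹ * b⁻¹) * (x * b * x⁻¹ * b⁻¹)⁻¹ := by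
        rw [commutatorElement_def]; group
      rw [e]
      exact mul_mem (commutator_mem (A.mul_mem hx ha') hb) (inv_mem (commutator_mem hx hb))
    exact hle hz
  refine Subgroup.mem_normalizer_iff.2 fun z => ⟨key a ha z, fun hz => ?_⟩
  simpa [mul_assoc] using key a⁻¹ (A.inv_mem ha) _ hz

lemma right_le_normalizer_commutator (A B : Subgroup G) : B ≤ Subgroup.normalizer ((⁅A, B⁆ : Subgroup G) : Set G) := by
  rw [Subgroup.commutator_comm A B]
  exact left_le_normalizer_commutator B A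

/-- If the commutator subgroup of two members is a member, the pair is in the commutator case. -/
lemma case_of_commutator_mem (hS : IsRootSubgroupSet S) (hA : A ∈ S) (hB : B ∈ S) (hC : ⁅A, B⁆ ∈ S) :
    RootCommutatorCase S A B := by
  rcases hS.pair A hA B hB with hc | hr | hcc
  · exact absurd hc (hS.ne_bot _ hC)
  · exfalso
    obtain ⟨a, ha, ha1⟩ := nonidentity_left hr
    obtain ⟨b, hb, hb1⟩ := nonidentity_left (RankOnePair_symm hr)
    have hle : ⁅A, B⁆ ≤ A ⊔ B := Subgroup.commutator_le.2 fun x hx y hy =>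
      mul_mem (mul_mem (mul_mem (Subgroup.mem_sup_left hx) (Subgroup.mem_sup_right hy))
        (inv_mem (Subgroup.mem_sup_left hx))) (inv_mem (Subgroup.mem_sup_right hy))
    rcases mem_unipotent_of_le hS hA hB hr hC hle with hU | hcent
    · have h1 := eq_of_fixed hr ha ha1 left_mem_unipotent hU
        (conjBy_eq_self_iff.2 (left_le_normalizer_commutator A B ha))
      have h2 := eq_of_fixed hr hb hb1 (right_mem_unipotent hr) hU
        (conjBy_eq_self_iff.2 (right_le_normalizer_commutator A B hb))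
      exact hr.ne (h1.symm.trans h2)
    · refine not_conj_commute hr ha ha1 hb hb1 hb hb1 ?_
      have h1 : Commute (a * b * a⁻¹ * b⁻¹) b :=
        hcent _ (commutator_mem ha hb) b (Subgroup.mem_sup_right hb)
      have h2 : Commute (a * b * a⁻¹ * b⁻¹ * b) b := h1.mul_left (Commute.refl b)
      simpa using h2.eq
  · exact hcc

lemma case_comm_left (h : RootCommutatorCase S A B) {c a : G} (hc : c ∈ ⁅A, B⁆) (ha : a ∈ A) :
    c * a = a * c := h.2.1 c hc a (Subgroup.mem_sup_left ha)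

lemma case_comm_right (h : RootCommutatorCase S A B) {c b : G} (hc : c ∈ ⁅A, B⁆) (hb : b ∈ B) :
    c * b = b * c := h.2.1 c hc b (Subgroup.mem_sup_right hb)

/-- The commutator is multiplicative in the second variable. -/
lemma commutator_mul (h : RootCommutatorCase S A B) {a b b' : G} (ha : a ∈ A) (hb : b ∈ B) (hb' : b' ∈ B) :
    a * (b * b') * a⁻¹ * (b * b')⁻¹ = (a * b * a⁻¹ * b⁻¹) * (a * b' * a⁻¹ * b'⁻¹) := by
  calc a * (b * b') * a⁻¹ * (b * b')⁻¹
      = (a * b * a⁻¹ * b⁻¹) * (b * (a * b' * a⁻¹ * b'⁻¹) * b⁻¹) := by group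
    _ = _ := by rw [conj_eq_self (case_comm_right h (commutator_mem ha hb') hb).symm]

/-- Every element of `⁅A, B⁆` is a commutator with a given non-identity element of `A`. -/
lemma exists_commutator_eq (h : RootCommutatorCase S A B) {a c : G} (ha : a ∈ A) (ha1 : a ≠ 1)
    (hc : c ∈ ⁅A, B⁆) : ∃ b ∈ B, a * b * a⁻¹ * b⁻¹ = c := by
  rw [← h.2.2.1 a ha ha1] at hc
  induction hc using Subgroup.closure_induction with
  | mem x hx => exact hx
  | one => exact ⟨1, B.one_mem, by group⟩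
  | mul x y _ _ hx hy =>
    obtain ⟨b, hb, rfl⟩ := hx
    obtain ⟨b', hb', rfl⟩ := hy
    exact ⟨b * b', B.mul_mem hb hb', commutator_mul h ha hb hb'⟩
  | inv x _ hx =>
    obtain ⟨b, hb, rfl⟩ := hx
    refine ⟨b⁻¹, B.inv_mem hb, ?_⟩
    have := commutator_mul h ha hb (B.inv_mem hb)
    rw [mul_inv_cancel, mul_one, inv_one, mul_one, mul_inv_cancel] at this
    exact eq_inv_of_mul_eq_one_right this.symm

/-- For a non-isolated `A`, only the identity of `B` commutes with a non-identity element of `A`. -/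
lemma eq_one_of_commute (hS : IsRootSubgroupSet S) (hA : A ∈ S) (hni : ¬ IsIsolatedIn (FAdj S) S A)
    (h : RootCommutatorCase S A B) {a b : G} (ha : a ∈ A) (ha1 : a ≠ 1) (hb : b ∈ B)
    (hab : a * b = b * a) : b = 1 := by
  by_contra hb1
  have hfix : conjBy A b = A := (eq_of_mem hS hA hni (hS.conj_mem A hA b) ha
    (by have := conj_mem_conjBy (g := b) ha; rwa [conj_eq_self hab.symm] at this) ha1).symm
  apply hS.ne_bot _ h.1
  rw [← h.2.2.2 b hb hb1, eq_bot_iff, Subgroup.closure_le]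
  rintro _ ⟨x, hx, rfl⟩
  rw [SetLike.mem_coe, Subgroup.mem_bot]
  by_contra hne
  have h1 : b * x⁻¹ * b⁻¹ ∈ A := hfix ▸ conj_mem_conjBy (A.inv_mem hx)
  have h2 : x * b * x⁻¹ * b⁻¹ ∈ A := by
    simpa [mul_assoc] using A.mul_mem hx h1
  have he : A = ⁅A, B⁆ := eq_of_mem hS hA hni h.1 h2 (commutator_mem hx hb) hne
  refine hne ?_
  show x * b * x⁻¹ * b⁻¹ = 1
  rw [case_comm_right h (he ▸ hx : x ∈ ⁅A, B⁆) hb]; group

/-- Elements of the join of two elementwise commuting subgroups. -/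
lemma mem_sup_of_commute (hc : ∀ a ∈ A, ∀ c ∈ C, a * c = c * a) {x : G} :
    x ∈ A ⊔ C ↔ ∃ a ∈ A, ∃ c ∈ C, x = a * c := by
  refine ⟨fun hx => ?_, fun ⟨a, ha, c, hc', e⟩ => e ▸ mul_mem (Subgroup.mem_sup_left ha) (Subgroup.mem_sup_right hc')⟩
  rw [Subgroup.sup_eq_closure] at hx
  induction hx using Subgroup.closure_induction with
  | mem y hy =>
    rcases hy with hy | hy
    · exact ⟨y, hy, 1, C.one_mem, (mul_one y).symm⟩
    · exact ⟨1, A.one_mem, y, hy, (one_mul y).symm⟩
  | one => exact ⟨1, A.one_mem, 1, C.one_mem, (mul_one 1).symm⟩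
  | mul y z _ _ hy hz =>
    obtain ⟨a, ha, c, hc', rfl⟩ := hy
    obtain ⟨a', ha', c', hc'', rfl⟩ := hz
    refine ⟨a * a', A.mul_mem ha ha', c * c', C.mul_mem hc' hc'', ?_⟩
    calc a * c * (a' * c') = a * (c * a') * c' := by group
      _ = a * (a' * c) * c' := by rw [hc a' ha' c hc']
      _ = _ := by group
  | inv y _ hy =>
    obtain ⟨a, ha, c, hc', rfl⟩ := hy
    exact ⟨a⁻¹, A.inv_mem ha, c⁻¹, C.inv_mem hc', by rw [hc _ (A.inv_mem ha) _ (C.inv_mem hc'), mul_inv_rev]⟩

end CfsgLib.RootGroups
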