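import Cfsg.Agent.RootGroups.Case
import Cfsg.Agent.S5029

/-!
Lines: subgroups `A ⊔ B` of two commuting members partitioned by members.
-/

set_option autoImplicit false

open Cfsg CfsgLib.RankOne
open scoped commutatorElement

namespace CfsgLib.RootGroups

variable {G : Type*} [Group G] {S : Set (Subgroup G)} {A A' B C D X Y : Subgroup G} {N : Subgroup G}

/-- A line: an abelian subgroup covered by the members it contains. -/
structure Line (S : Set (Subgroup G)) (N : Subgroup G) : Prop where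
  comm : ∀ x ∈ N, ∀ y ∈ N, x * y = y * x
  cover : ∀ x ∈ N, x ≠ 1 → ∃ C ∈ membersIn S N, x ∈ C

lemma line_of_linePartners (hS : IsRootSubgroupSet S) (hA : A ∈ S) (h : B ∈ linePartners S A) :
    Line S (A ⊔ B) := by
  obtain ⟨⟨hB, -, hc⟩, -, hcov, -⟩ := h
  have hc' := commutator_eq_bot_iff.1 hc
  refine ⟨fun x hx y hy => ?_, hcov⟩
  obtain ⟨a, ha, b, hb, rfl⟩ := (mem_sup_of_commute hc').1 hx
  obtain ⟨a', ha', b', hb', rfl⟩ := (mem_sup_of_commute hc').1 hy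
  have k1 : Commute a a' := mul_comm_of_mem hS hA ha ha'
  have k2 : Commute b b' := mul_comm_of_mem hS hB hb hb'
  have k3 : Commute a b' := hc' a ha b' hb'
  have k4 : Commute b a' := (hc' a' ha' b hb).symm
  exact ((k1.mul_right k3).mul_left (k4.mul_right k2)).eq

lemma Line.comm_members (hN : Line S N) (hX : X ∈ membersIn S N) (hY : Y ∈ membersIn S N) :
    ∀ x ∈ X, ∀ y ∈ Y, x * y = y * x := fun x hx y hy => hN.comm x (hX.2 hx) y (hY.2 hy)

/-- A partner of one member of a line commutes with no other. -/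
lemma Line.not_commute (hS : IsRootSubgroupSet S) (hN : Line S N) (hX : X ∈ membersIn S N)
    (hY : Y ∈ membersIn S N) (hne : Y ≠ X) (hC : C ∈ S) (hp : IsRankOnePair X C) : ⁅Y, C⁆ ≠ ⊥ := by
  intro hcom
  rw [commutator_eq_bot_iff] at hcom
  obtain ⟨x, hx, hx1⟩ := exists_nonid hS hX.1
  obtain ⟨y, hy, hy1⟩ := exists_nonid hS hY.1
  have hxy : y * x ≠ 1 := fun e => hne <| Eq.symm <| eq_of_mem hS hX.1 (not_isolated hX.1 hC hp) hY.1 hx
    (by rw [eq_inv_of_mul_eq_one_right e]; exact Y.inv_mem hy) hx1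
  obtain ⟨E, hE, hxyE⟩ := hN.cover _ (N.mul_mem (hY.2 hy) (hX.2 hx)) hxy
  refine Cfsg.Agent.S5025.not_rootElement hS ⟨hC, hp⟩ (Subgroup.mem_centralizer_iff.2 ?_) hy1 x hx hx1
    ⟨hxy, E, hE.1, hxyE⟩
  have hle : X ⊔ C ≤ Subgroup.centralizer {y} := sup_le
    (fun u hu => Subgroup.mem_centralizer_singleton_iff.2 (hN.comm u (hX.2 hu) y (hY.2 hy)))
    (fun u hu => Subgroup.mem_centralizer_singleton_iff.2 (hcom y hy u hu).symm)
  exact fun g hg => Subgroup.mem_centralizer_singleton_iff.1 (hle hg)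

lemma case_of_not_rankOne (hS : IsRootSubgroupSet S) (hA : A ∈ S) (hB : B ∈ S) (h : ¬ IsRankOnePair A B)
    (h' : ⁅A, B⁆ ≠ ⊥) : RootCommutatorCase S A B :=
  ((hS.pair A hA B hB).resolve_left h').resolve_left h

/-- If `A` commutes with two unipotent subgroups of `⟨C, A'⟩` then they coincide. -/
lemma eq_one_of_commute_conj (hp : IsRankOnePair A A') (hq : IsRankOnePair C A') (hAC : ⁅A, C⁆ = ⊥)
    {u : G} (hu : u ∈ A') (h : ∀ a ∈ A, ∀ c ∈ conjBy C u, a * c = c * a) : u = 1 := by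
  by_contra hu1
  have hne : C ≠ conjBy C u := (conjBy_ne (RankOnePair_symm hq) hu hu1).symm
  have hsup := (opp hq left_mem_unipotent
    (conjBy_mem_unipotent left_mem_unipotent (Subgroup.mem_sup_right hu)) hne).2.1
  apply commutator_ne_bot hp
  rw [commutator_eq_bot_iff]
  intro a ha x hx
  have hle : C ⊔ conjBy C u ≤ Subgroup.centralizer {a} := sup_le
    (fun c hc => Subgroup.mem_centralizer_singleton_iff.2 (commutator_eq_bot_iff.1 hAC a ha c hc).symm)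
    (fun c hc => Subgroup.mem_centralizer_singleton_iff.2 (h a ha c hc).symm)
  rw [hsup] at hle
  exact (Subgroup.mem_centralizer_singleton_iff.1 (hle (Subgroup.mem_sup_right hx))).symm

/-- Transfer along a line: if `A' ^ (a₀⁻¹) = A ^ (a'⁻¹)` and `A'^((a₀ d)⁻¹) = C^(b'⁻¹)` with `d` in a member `D`
not forming a rank one pair with `A'`, then `C` is the conjugate of `A` by `[d⁻¹, a']⁻¹`. -/
lemma conj_eq_member (hS : IsRootSubgroupSet S) (hN : Line S N) (hA : A ∈ membersIn S N)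
    (hC : C ∈ membersIn S N) (hD : D ∈ membersIn S N) (hA' : A' ∈ S) (hp : IsRankOnePair A A')
    (hq : IsRankOnePair C A') (hcase : RootCommutatorCase S D A') {a₀ d a' b' : G} (ha₀ : a₀ ∈ A)
    (hd : d ∈ D) (ha' : a' ∈ A') (hb' : b' ∈ A') (h1 : conjBy A' a₀⁻¹ = conjBy A a'⁻¹)
    (h2 : conjBy A' (a₀ * d)⁻¹ = conjBy C b'⁻¹) :
    C = conjBy A (d⁻¹ * a' * d * a'⁻¹)⁻¹ := by
  have hdA : ∀ x ∈ A, d * x = x * d := fun x hx => hN.comm d (hD.2 hd) x (hA.2 hx)
  -- `b' = a'`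
  have hb : b' = a' := by
    have hu : a' * b'⁻¹ = 1 := by
      refine eq_one_of_commute_conj hp hq (commutator_eq_bot_iff.2 (hN.comm_members hA hC))
        (A'.mul_mem ha' (A'.inv_mem hb')) fun a ha c hc => ?_
      rw [← conjBy_conjBy, ← h2, mem_conjBy] at hc
      rw [mem_conjBy] at hc
      simp only [inv_inv] at hc
      have ha2 : a₀ * (a'⁻¹ * a * a') * a₀⁻¹ ∈ A' := by
        have h3 : a'⁻¹ * a * a' ∈ conjBy A' a₀⁻¹ := by
          rw [h1]
          have := conj_mem_conjBy (g := a'⁻¹) ha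
          rwa [inv_inv] at this
        rwa [mem_conjBy, inv_inv] at h3
      set u := a₀ * (a'⁻¹ * a * a') * a₀⁻¹
      set v := a₀ * d * (a'⁻¹ * c * a') * (a₀ * d)⁻¹
      have h4 : Commute (d⁻¹ * v * d⁻¹⁻¹) u :=
        conj_commute_of_case hcase hS hA' (D.inv_mem hd) hc ha2
      have h5 := h4.map (MulAut.conj (a' * a₀⁻¹)).toMonoidHom
      simp only [MulEquiv.coe_toMonoidHom, MulAut.conj_apply] at h5
      have e1 : a' * a₀⁻¹ * u * (a' * a₀⁻¹)⁻¹ = a := by simp only [u]; group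
      have e2 : a' * a₀⁻¹ * (d⁻¹ * v * d⁻¹⁻¹) * (a' * a₀⁻¹)⁻¹ = c := by
        simp only [v]
        have e3 : a₀ * d = d * a₀ := (hdA a₀ ha₀).symm
        rw [e3]
        group
      rw [e1, e2] at h5
      exact h5.symm.eq
    exact (mul_inv_eq_one.1 hu).symm
  rw [hb] at h2
  have e : conjBy A (d⁻¹ * a' * d)⁻¹ = conjBy C a'⁻¹ := by
    have hAd : conjBy A d = A := by
      refine conjBy_eq_self_iff.2 (Subgroup.mem_normalizer_iff.2 fun x => ⟨fun hx => ?_, fun hx => ?_⟩)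
      · rwa [conj_eq_self (hdA x hx)]
      · have h3 : d⁻¹ * (d * x * d⁻¹) = (d * x * d⁻¹) * d⁻¹ :=
          hN.comm _ (N.inv_mem (hD.2 hd)) _ (hA.2 hx)
        have h4 : x = d * x * d⁻¹ := by
          calc x = d⁻¹ * (d * x * d⁻¹) * d := by group
            _ = _ := by rw [h3]; group
        rwa [h4]
    have ha : a₀ * d = d * a₀ := (hdA a₀ ha₀).symm
    rw [← h2]
    calc conjBy A (d⁻¹ * a' * d)⁻¹ = conjBy (conjBy A d) (d⁻¹ * a'⁻¹) := by
          rw [conjBy_conjBy]; congr 1; group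
      _ = conjBy (conjBy A a'⁻¹) d⁻¹ := by rw [hAd, conjBy_conjBy]
      _ = conjBy A' (a₀ * d)⁻¹ := by rw [← h1, conjBy_conjBy, mul_inv_rev]
  have e2 := congrArg (fun Z => conjBy Z a') e
  simp only [conjBy_conjBy, mul_inv_cancel] at e2
  rw [conjBy_one] at e2
  rw [← e2]
  congr 1
  group

/-- Given `a ∈ A`, `d ∈ D` the member containing `a d` is a conjugate of `A` under `⁅D, A'⁆`. -/
lemma exists_conj_eq (hS : IsRootSubgroupSet S) (hN : Line S N) (hA : A ∈ membersIn S N)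
    (hD : D ∈ membersIn S N) (hDA : D ≠ A) (hA' : A' ∈ S) (hp : IsRankOnePair A A')
    (hnr : ¬ IsRankOnePair D A') {a d : G} (ha : a ∈ A) (ha1 : a ≠ 1) (hd : d ∈ D) (hC : C ∈ membersIn S N)
    (hadC : a * d ∈ C) :
    ∃ a' ∈ A', conjBy A' a⁻¹ = conjBy A a'⁻¹ ∧ C = conjBy A (d⁻¹ * a' * d * a'⁻¹)⁻¹ := by
  have hcase := case_of_not_rankOne hS hD.1 hA' hnr (hN.not_commute hS hA hD hDA hA' hp)
  have hq : IsRankOnePair C A' :=
    (rankOne_or hS hA.1 hA' hD.1 hC.1 hp ha ha1 hd hadC).resolve_left hnr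
  obtain ⟨a', ha', -, he⟩ := hp.cond_left a ha ha1
  have hne : a * d ≠ 1 := fun e => hDA <| Eq.symm <| eq_of_mem hS hA.1 (not_isolated hA.1 hA' hp) hD.1 ha
    (by rw [eq_inv_of_mul_eq_one_left e]; exact D.inv_mem hd) ha1
  obtain ⟨b', hb', -, he'⟩ := hq.cond_left (a * d) hadC hne
  exact ⟨a', ha', he.symm, conj_eq_member hS hN hA hC hD hA' hp hq hcase ha hd ha' hb' he.symm he'.symm⟩

/-- For a partner `A'` of `A` the line contains a second member `D` not forming a rank one pair with `A'`. -/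
lemma exists_axis (hS : IsRootSubgroupSet S) (hN : Line S N) (hA : A ∈ membersIn S N)
    (hB : B ∈ membersIn S N) (hBA : B ≠ A) (hgen : A ⊔ B = N) (hA' : A' ∈ S) (hp : IsRankOnePair A A')
    (hni : ∀ D ∈ membersIn S N, ¬ IsIsolatedIn (FAdj S) S D) :
    ∃ D ∈ membersIn S N, D ≠ A ∧ A ⊔ D = N ∧ ¬ IsRankOnePair D A' := by
  by_cases hq : IsRankOnePair B A'
  swap
  · exact ⟨B, hB, hBA, hgen, hq⟩
  obtain ⟨a', ha', ha'1⟩ := exists_nonid hS hA'
  obtain ⟨a₀, ha₀, ha₀1, he⟩ := hp.cond_right a' ha' ha'1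
  obtain ⟨e₀, he₀, -, he'⟩ := hq.cond_right a' ha' ha'1
  set d := a₀⁻¹ * e₀ with hd
  have hd1 : d ≠ 1 := fun e => hBA <| Eq.symm <| eq_of_mem hS hA.1 (not_isolated hA.1 hA' hp) hB.1 ha₀
    (inv_mul_eq_one.1 e ▸ he₀) ha₀1
  obtain ⟨D, hD, hdD⟩ := hN.cover d (N.mul_mem (N.inv_mem (hA.2 ha₀)) (hB.2 he₀)) hd1
  have hdA : d ∉ A := fun h => by
    have : e₀ ∈ A := by simpa [hd] using A.mul_mem ha₀ h
    by_cases he1 : e₀ = 1
    · rw [he1] at he'
      rw [inv_one, conjBy_one, eq_comm, conjBy_eq_iff, inv_inv, conjBy_eq_self_of_mem ha'] at he'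
      exact hq.ne he'
    · exact hBA (eq_of_mem hS hA.1 (not_isolated hA.1 hA' hp) hB.1 this he₀ he1).symm
  have hDA : D ≠ A := fun h => hdA (h ▸ hdD)
  have hnr : ¬ IsRankOnePair D A' := by
    intro hr
    obtain ⟨u, hu, hu1⟩ := nonidentity_left (RankOnePair_symm hp)
    refine not_conj_commute hr hdD hd1 hu hu1 hu hu1 ?_
    -- both sides conjugate into `A` and `B`
    have hy : a₀⁻¹ * u * a₀ ∈ conjBy A a'⁻¹ := by
      rw [← he]
      have := conj_mem_conjBy (g := a₀⁻¹) hu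
      rwa [inv_inv] at this
    have hz : e₀⁻¹ * u * e₀ ∈ conjBy B a'⁻¹ := by
      rw [← he']
      have := conj_mem_conjBy (g := e₀⁻¹) hu
      rwa [inv_inv] at this
    rw [mem_conjBy, inv_inv] at hy hz
    have hc : Commute (a' * (a₀⁻¹ * u * a₀) * a'⁻¹) (a' * (e₀⁻¹ * u * e₀) * a'⁻¹) :=
      hN.comm_members hA hB _ hy _ hz
    have h5 := hc.map (MulAut.conj (e₀ * a'⁻¹)).toMonoidHom
    simp only [MulEquiv.coe_toMonoidHom, MulAut.conj_apply] at h5
    have e1 : e₀ * a'⁻¹ * (a' * (e₀⁻¹ * u * e₀) * a'⁻¹) * (e₀ * a'⁻¹)⁻¹ = u := by group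
    have e2 : e₀ * a'⁻¹ * (a' * (a₀⁻¹ * u * a₀) * a'⁻¹) * (e₀ * a'⁻¹)⁻¹ = d * u * d⁻¹ := by
      have e3 : e₀ * a₀⁻¹ = a₀⁻¹ * e₀ := hN.comm _ (hB.2 he₀) _ (N.inv_mem (hA.2 ha₀))
      calc _ = (e₀ * a₀⁻¹) * u * (e₀ * a₀⁻¹)⁻¹ := by group
        _ = _ := by rw [e3]
    rw [e1, e2] at h5
    exact h5.eq
  have hcase := case_of_not_rankOne hS hD.1 hA' hnr (hN.not_commute hS hA hD hDA hA' hp)
  have hconj := conj_eq_member hS hN hA hB hD hA' hp hq hcase ha₀ hdD ha' ha' he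
    (by rw [hd, mul_inv_cancel_left]; exact he')
  set M := ⁅D, A'⁆
  set m := (d⁻¹ * a' * d * a'⁻¹)⁻¹ with hm
  have hmM : m ∈ M := inv_mem (by simpa using commutator_mem (D.inv_mem hdD) ha')
  have hMA : ¬ IsRankOnePair A M := by
    intro hr
    refine hN.not_commute hS hA hD hDA hcase.1 hr (commutator_eq_bot_iff.2 fun x hx y hy => ?_)
    exact (case_comm_left hcase hy hx).symm
  have hAM : ⁅A, M⁆ ≠ ⊥ := by
    intro h
    refine hBA ?_
    rw [hconj]
    refine conjBy_eq_self_iff.2 (Subgroup.mem_normalizer_iff.2 fun x => ⟨fun hx => ?_, fun hx => ?_⟩)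
    · rwa [conj_eq_self (commutator_eq_bot_iff.1 h x hx m hmM).symm]
    · have h3 := commutator_eq_bot_iff.1 h _ hx m⁻¹ (M.inv_mem hmM)
      have h4 : x = m * x * m⁻¹ := by
        calc x = m⁻¹ * (m * x * m⁻¹) * m := by group
          _ = _ := by rw [← h3]; group
      rwa [h4]
  have hc2 := case_of_not_rankOne hS hA.1 hcase.1 hMA hAM
  obtain ⟨hmem, hpart, -, -⟩ := Cfsg.Agent.S5029.result hS (not_isolated hA.1 hA' hp) hA.1 hcase.1 hc2.1
  have hBle : B ≤ A ⊔ ⁅A, M⁆ := by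
    have hB' : B ∈ membersIn S (A ⊔ ⁅A, M⁆) := by
      rw [hmem, hconj]
      exact Or.inl ⟨m, hmM, rfl⟩
    exact hB'.2
  have hdL : d ∈ A ⊔ ⁅A, M⁆ :=
    mul_mem (inv_mem (Subgroup.mem_sup_left ha₀)) (hBle he₀)
  obtain ⟨E, hE, hdE⟩ := hpart.2.1 d hdL hd1
  have hDeq : D = ⁅A, M⁆ := by
    rw [hmem] at hE
    rcases hE with ⟨k, hk, rfl⟩ | hE
    · exfalso
      have hk' : conjBy A' k = A' := conjBy_eq_self_iff.2 <| Subgroup.mem_normalizer_iff.2 fun x =>
        ⟨fun hx => by rwa [conj_eq_self (case_comm_right hcase hk hx)], fun hx => by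
          have h3 := case_comm_right hcase (M.inv_mem hk) hx
          have h4 : x = k * x * k⁻¹ := by
            calc x = k⁻¹ * (k * x * k⁻¹) * k := by group
              _ = _ := by rw [h3]; group
          rwa [h4]⟩
      have hrk : IsRankOnePair (conjBy A k) A' := hk' ▸ isRankOnePair_conj hp k
      exact hnr (eq_of_mem hS (hS.conj_mem A hA.1 k) (not_isolated (hS.conj_mem A hA.1 k) hA' hrk) hD.1
        hdE hdD hd1 ▸ hrk)
    · rw [Set.mem_singleton_iff] at hE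
      rw [hE] at hdE
      exact eq_of_mem hS hD.1 (hni D hD) hc2.1 hdD hdE hd1
  refine ⟨D, hD, hDA, le_antisymm (sup_le hA.2 hD.2) ?_, hnr⟩
  rw [← hgen]
  exact sup_le le_sup_left (hBle.trans (by rw [hDeq]))

/-- A member normalising the line, fixing one point and transitive on the others. -/
lemma exists_mover (hS : IsRootSubgroupSet S) (hN : Line S N) (hA : A ∈ membersIn S N)
    (hB : B ∈ membersIn S N) (hBA : B ≠ A) (hgen : A ⊔ B = N)
    (hni : ∀ D ∈ membersIn S N, ¬ IsIsolatedIn (FAdj S) S D) :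
    ∃ D ∈ membersIn S N, D ≠ A ∧ A ⊔ D = N ∧ ∃ M ∈ normalizingMembers S N,
      (∀ m ∈ M, conjBy D m = D) ∧ ∀ C ∈ membersIn S N, C ≠ D → ∃ m ∈ M, conjBy A m = C := by
  obtain ⟨A', hA', hp⟩ := exists_partner (hni A hA) hA.1
  obtain ⟨D, hD, hDA, hAD, hnr⟩ := exists_axis hS hN hA hB hBA hgen hA' hp hni
  have hcase := case_of_not_rankOne hS hD.1 hA' hnr (hN.not_commute hS hA hD hDA hA' hp)
  set M := ⁅D, A'⁆
  obtain ⟨a', ha', ha'1⟩ := exists_nonid hS hA'
  obtain ⟨a₀, ha₀, ha₀1, he⟩ := hp.cond_right a' ha' ha'1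
  have hcs := rootCommutatorCase_symm hcase
  have hfix : ∀ m ∈ M, conjBy D m = D := fun m hm => conjBy_eq_self_iff.2 <|
    Subgroup.mem_normalizer_iff.2 fun x =>
      ⟨fun hx => by rwa [conj_eq_self (case_comm_left hcase hm hx)], fun hx => by
        have h3 := case_comm_left hcase (M.inv_mem hm) hx
        have h4 : x = m * x * m⁻¹ := by
          calc x = m⁻¹ * (m * x * m⁻¹) * m := by group
            _ = _ := by rw [h3]; group
        rwa [h4]⟩
  have hmove : ∀ m ∈ M, conjBy A m ≤ N := by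
    intro m hm
    obtain ⟨d, hd, hde⟩ := exists_commutator_eq hcs ha' ha'1
      (show m ∈ ⁅A', D⁆ by rwa [Subgroup.commutator_comm])
    have hne : a₀ * d⁻¹ ≠ 1 := fun e => hDA <| Eq.symm <| eq_of_mem hS hA.1 (hni A hA) hD.1 ha₀
      (by rw [mul_inv_eq_one.1 e]; exact hd) ha₀1
    obtain ⟨C, hC, hCe⟩ := hN.cover _ (N.mul_mem (hA.2 ha₀) (N.inv_mem (hD.2 hd))) hne
    have hq : IsRankOnePair C A' :=
      (rankOne_or hS hA.1 hA' hD.1 hC.1 hp ha₀ ha₀1 (D.inv_mem hd) hCe).resolve_left hnr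
    obtain ⟨b', hb', -, he'⟩ := hq.cond_left _ hCe hne
    have h := conj_eq_member hS hN hA hC hD hA' hp hq hcase ha₀ (D.inv_mem hd) ha' hb' he he'.symm
    rw [show (d⁻¹⁻¹ * a' * d⁻¹ * a'⁻¹)⁻¹ = m by rw [← hde]; group] at h
    rw [← h]
    exact hC.2
  have hnorm : M ≤ Subgroup.normalizer (N : Set G) := by
    intro m hm
    have key : ∀ k ∈ M, ∀ x ∈ N, k * x * k⁻¹ ∈ N := by
      intro k hk x hx
      have hle : N ≤ N.comap (MulAut.conj k).toMonoidHom := by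
        rw [← hAD]
        refine sup_le (fun a ha => ?_) (fun d hd => ?_)
        · rw [hAD]; exact hmove k hk (conj_mem_conjBy ha)
        · rw [hAD]; exact hD.2 (hfix k hk ▸ conj_mem_conjBy hd)
      exact hle hx
    refine Subgroup.mem_normalizer_iff.2 fun x => ⟨key m hm x, fun hx => ?_⟩
    simpa [mul_assoc] using key m⁻¹ (M.inv_mem hm) _ hx
  refine ⟨D, hD, hDA, hAD, M, ⟨hcase.1, hnorm⟩, hfix, fun C hC hCD => ?_⟩
  obtain ⟨x, hx, hx1⟩ := exists_nonid hS hC.1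
  obtain ⟨a, ha, d, hd, rfl⟩ := (mem_sup_of_commute (hN.comm_members hA hD)).1 (hAD.symm ▸ hC.2 hx)
  have ha1 : a ≠ 1 := by
    rintro rfl
    rw [one_mul] at hx hx1
    exact hCD (eq_of_mem hS hC.1 (hni C hC) hD.1 hx hd hx1)
  obtain ⟨u, hu, -, hCeq⟩ := exists_conj_eq hS hN hA hD hDA hA' hp hnr ha ha1 hd hC hx
  refine ⟨_, M.inv_mem ?_, hCeq.symm⟩
  simpa using commutator_mem (D.inv_mem hd) hu

end CfsgLib.RootGroups
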