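import Cfsg.Agent.RootGroups.Line
import Cfsg.Agent.S5038

/-!
Non-degenerate classes of root subgroups: axes, line partners.
-/

set_option autoImplicit false

open Cfsg CfsgLib.RankOne
open scoped commutatorElement

namespace CfsgLib.RootGroups

variable {G : Type*} [Group G] {S : Set (Subgroup G)} {A A' B C D X Y : Subgroup G} {N : Subgroup G}

lemma class_not_isolated (hS : IsRootSubgroupClass S) (hnd : IsNondegenerateRootSet S) :
    ∀ A ∈ S, ¬ IsIsolatedIn (FAdj S) S A := by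
  intro A hA
  obtain ⟨X, hX, Y, hY, hXY⟩ := hnd.2.1
  obtain ⟨g, rfl⟩ := hS.2.2 X hX A hA
  exact not_isolated_conj hS.1 hX (not_isolated hX hY hXY) g

lemma linePartners_symm (hA : A ∈ S) (h : B ∈ linePartners S A) : A ∈ linePartners S B := by
  obtain ⟨⟨-, hne, hc⟩, hp⟩ := h
  exact ⟨⟨hA, hne.symm, by rwa [Subgroup.commutator_comm]⟩, by rwa [sup_comm]⟩

lemma linePartners_conj (hS : IsRootSubgroupSet S) (g : G) (h : B ∈ linePartners S A) :
    conjBy B g ∈ linePartners S (conjBy A g) := by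
  obtain ⟨⟨hB, hne, hc⟩, hle, hcov, hdis⟩ := h
  refine ⟨⟨hS.conj_mem B hB g, fun e => hne (conjBy_inj.1 e), ?_⟩, fun E hE => hE.2, ?_, ?_⟩
  · show ⁅A.map _, B.map _⁆ = ⊥
    rw [← Subgroup.map_commutator, hc, Subgroup.map_bot]
  · intro x hx hx1
    rw [← conjBy_sup, mem_conjBy] at hx
    obtain ⟨E, hE, hxE⟩ := hcov _ hx fun e => hx1 <| by
      calc x = g * (g⁻¹ * x * g) * g⁻¹ := by group
        _ = 1 := by rw [e]; group
    exact ⟨conjBy E g, ⟨hS.conj_mem E hE.1 g, by rw [← conjBy_sup]; exact Subgroup.map_mono hE.2⟩,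
      mem_conjBy.2 hxE⟩
  · intro E hE F hF hEF
    have key : ∀ Z ∈ membersIn S (conjBy A g ⊔ conjBy B g), conjBy Z g⁻¹ ∈ membersIn S (A ⊔ B) :=
      fun Z hZ => ⟨hS.conj_mem Z hZ.1 _, by
        have h1 := Subgroup.map_mono (f := (MulAut.conj g⁻¹).toMonoidHom) hZ.2
        rw [← conjBy_sup] at h1
        exact h1.trans (conjBy_inv_conjBy _ g).le⟩
    have h1 := hdis _ (key E hE) _ (key F hF) (fun e => hEF (conjBy_inj.1 e))
    rw [Subgroup.eq_bot_iff_forall] at h1 ⊢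
    rintro x ⟨hx, hx'⟩
    have := h1 (g⁻¹ * x * g⁻¹⁻¹) ⟨conj_mem_conjBy hx, conj_mem_conjBy hx'⟩
    exact conj_eq_one_iff.1 this

lemma linePartners_commutator (hS : IsRootSubgroupSet S) (hA : A ∈ S) (hni : ¬ IsIsolatedIn (FAdj S) S A)
    (hB : B ∈ S) (hC : ⁅A, B⁆ ∈ S) : A ∈ linePartners S ⁅A, B⁆ :=
  (Cfsg.Agent.S5029.result hS hni hA hB hC).2.2.1

lemma exists_linePartner (hS : IsRootSubgroupClass S) (hnd : IsNondegenerateRootSet S) (hA : A ∈ S) :
    ∃ C, C ∈ linePartners S A := by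
  obtain ⟨X, hX, Y, hY, hXY⟩ := hnd.2.2
  obtain ⟨g, rfl⟩ := hS.2.2 _ hXY.1 A hA
  exact ⟨_, linePartners_conj hS.1 g (linePartners_commutator hS.1 hX (class_not_isolated hS hnd X hX) hY hXY.1)⟩

/-- The axis relation: `⁅A, ⁅D, A'⁆⁆ = D`. -/
lemma axis_eq (hS : IsRootSubgroupSet S) (hN : Line S N) (hA : A ∈ membersIn S N) (hD : D ∈ membersIn S N)
    (hDA : D ≠ A) (hA' : A' ∈ S) (hp : IsRankOnePair A A') (hnr : ¬ IsRankOnePair D A')
    (hni : ¬ IsIsolatedIn (FAdj S) S D) :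
    ⁅A, ⁅D, A'⁆⁆ = D ∧ RootCommutatorCase S A ⁅D, A'⁆ := by
  have hcase := case_of_not_rankOne hS hD.1 hA' hnr (hN.not_commute hS hA hD hDA hA' hp)
  set M := ⁅D, A'⁆ with hM
  obtain ⟨a, ha, ha1⟩ := exists_nonid hS hA.1
  obtain ⟨d, hd, hd1⟩ := exists_nonid hS hD.1
  have hne : a * d ≠ 1 := fun e => hDA <| eq_of_mem hS hD.1 hni hA.1 hd
    (by rw [eq_inv_of_mul_eq_one_right e]; exact A.inv_mem ha) hd1
  obtain ⟨C, hC, hadC⟩ := hN.cover _ (N.mul_mem (hA.2 ha) (hD.2 hd)) hne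
  obtain ⟨u, hu, -, hCe⟩ := exists_conj_eq hS hN hA hD hDA hA' hp hnr ha ha1 hd hC hadC
  set m := (d⁻¹ * u * d * u⁻¹)⁻¹ with hm
  have hmM : m ∈ M := inv_mem (by simpa using commutator_mem (D.inv_mem hd) hu)
  have hdA : d ∉ A := fun h => hDA (eq_of_mem hS hD.1 hni hA.1 hd h hd1)
  have hMA : ¬ IsRankOnePair A M := fun hr => hN.not_commute hS hA hD hDA hcase.1 hr
    (commutator_eq_bot_iff.2 fun x hx y hy => (case_comm_left hcase hy hx).symm)
  have hAM : ⁅A, M⁆ ≠ ⊥ := by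
    intro h
    rw [hCe, mem_conjBy] at hadC
    have h1 := commutator_eq_bot_iff.1 h _ hadC m hmM
    have h2 : a * d ∈ A := by
      have e : a * d = m⁻¹ * (a * d) * m := by
        calc a * d = m * (m⁻¹ * (a * d) * m) * m⁻¹ := by group
          _ = _ := by rw [← h1]; group
      rw [e]; exact hadC
    exact hdA (by simpa using A.mul_mem (A.inv_mem ha) h2)
  have hc2 := case_of_not_rankOne hS hA.1 hcase.1 hMA hAM
  obtain ⟨hmem, hpart, -, -⟩ := Cfsg.Agent.S5029.result hS (not_isolated hA.1 hA' hp) hA.1 hcase.1 hc2.1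
  have hCle : C ≤ A ⊔ ⁅A, M⁆ := by
    have : C ∈ membersIn S (A ⊔ ⁅A, M⁆) := by
      rw [hmem, hCe]
      exact Or.inl ⟨m, hmM, rfl⟩
    exact this.2
  have hdL : d ∈ A ⊔ ⁅A, M⁆ := by
    simpa using mul_mem (inv_mem (Subgroup.mem_sup_left ha : a ∈ A ⊔ ⁅A, M⁆)) (hCle hadC)
  obtain ⟨E, hE, hdE⟩ := hpart.2.1 d hdL hd1
  rw [hmem] at hE
  rcases hE with ⟨k, hk, rfl⟩ | hE
  · exfalso
    have hk' : conjBy A' k = A' := conjBy_eq_self_iff.2 <| Subgroup.mem_normalizer_iff.2 fun x =>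
      ⟨fun hx => by rwa [conj_eq_self (case_comm_right hcase hk hx)], fun hx => by
        have h3 := case_comm_right hcase (M.inv_mem hk) hx
        have h4 : x = k * x * k⁻¹ := by
          calc x = k⁻¹ * (k * x * k⁻¹) * k := by group
            _ = _ := by rw [h3]; group
        rwa [h4]⟩
    have hrk : IsRankOnePair (conjBy A k) A' := hk' ▸ isRankOnePair_conj hp k
    exact hnr (eq_of_mem hS (hS.conj_mem A hA.1 k) (not_isolated (hS.conj_mem A hA.1 k) hA' hrk) hD.1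
      hdE hd hd1 ▸ hrk)
  · rw [Set.mem_singleton_iff] at hE
    rw [hE] at hdE
    exact ⟨(eq_of_mem hS hD.1 hni hc2.1 hd hdE hd1).symm, hc2⟩

/-- Every rank one partner of `A` has an axis among the line partners of `A`. -/
lemma exists_axis_partner (hS : IsRootSubgroupClass S) (hnd : IsNondegenerateRootSet S) (hA : A ∈ S)
    (hB : B ∈ S) (hp : IsRankOnePair A B) :
    ∃ D ∈ linePartners S A, ¬ IsRankOnePair D B ∧ RootCommutatorCase S D B := by
  have hni := class_not_isolated hS hnd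
  obtain ⟨C, hC⟩ := exists_linePartner hS hnd hA
  have hN := line_of_linePartners hS.1 hA hC
  obtain ⟨D, hD, hDA, hgen, hnr⟩ := exists_axis hS.1 hN (A := A) (B := C) ⟨hA, le_sup_left⟩
    ⟨hC.1.1, le_sup_right⟩ hC.1.2.1 rfl hB hp (fun D hD => hni D hD.1)
  refine ⟨D, ⟨⟨hD.1, hDA, commutator_eq_bot_iff.2 (hN.comm_members ⟨hA, le_sup_left⟩ hD)⟩, by
    rw [hgen]; exact hC.2⟩, hnr, ?_⟩
  exact case_of_not_rankOne hS.1 hD.1 hB hnr (hN.not_commute hS.1 ⟨hA, le_sup_left⟩ hD hDA hB hp)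

lemma linePartners_connected (hS : IsRootSubgroupClass S) (hnd : IsNondegenerateRootSet S) :
    IsConnectedFamily (EAdj S S) S := by
  have hni := class_not_isolated hS hnd
  intro A hA B hB
  obtain ⟨g, rfl⟩ := hS.2.2 A hA B hB
  have h := reach_conj_self hS.1 g A hA (hni A hA)
  clear hB
  generalize conjBy A g = Z at h ⊢
  induction h with
  | refl => exact Relation.ReflTransGen.refl
  | @tail X Y _ hXY ih =>
    obtain ⟨hX, hY, hp⟩ := hXY
    obtain ⟨D, hD, -, hcase⟩ := exists_axis_partner hS hnd hX hY hp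
    refine ((ih.tail ⟨hX, hD.1.1, hD⟩).tail ⟨hD.1.1, hcase.1,
      linePartners_symm hcase.1 (linePartners_commutator hS.1 hD.1.1 (hni D hD.1.1) hY hcase.1)⟩).tail
      ⟨hcase.1, hY, ?_⟩
    have h := linePartners_commutator hS.1 hY (hni Y hY) hD.1.1
      (by rw [Subgroup.commutator_comm]; exact hcase.1)
    rwa [Subgroup.commutator_comm] at h

/-- A non-axis partner can be moved so that a given member of the line becomes its axis. -/
lemma exists_partner_axis (hS : IsRootSubgroupClass S) (hnd : IsNondegenerateRootSet S) (hA : A ∈ S)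
    (hC : C ∈ linePartners S A) : ∃ P ∈ S, IsRankOnePair A P ∧ ¬ IsRankOnePair C P := by
  have hni := class_not_isolated hS hnd
  have hN := line_of_linePartners hS.1 hA hC
  obtain ⟨P, hP, hp⟩ := exists_partner (hni A hA) hA
  obtain ⟨D, hD, hDA, -, hnr⟩ := exists_axis hS.1 hN (A := A) (B := C) ⟨hA, le_sup_left⟩
    ⟨hC.1.1, le_sup_right⟩ hC.1.2.1 rfl hP hp (fun D hD => hni D hD.1)
  obtain ⟨x, -, hxA, hxD⟩ := Cfsg.Agent.S5038.result hS.1 hni hA hC A ⟨hA, le_sup_left⟩ D hD A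
    ⟨hA, le_sup_left⟩ C ⟨hC.1.1, le_sup_right⟩ hDA.symm hC.1.2.1.symm
  refine ⟨conjBy P x, hS.1.conj_mem P hP x, hxA ▸ isRankOnePair_conj hp x, fun h => hnr ?_⟩
  have := isRankOnePair_conj h x⁻¹
  rwa [← hxD, conjBy_inv_conjBy, conjBy_inv_conjBy] at this

end CfsgLib.RootGroups
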