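import Cfsg.Agent.RootGroups.NonDeg
import Cfsg.Agent.S5036
import Cfsg.Agent.S5042

/-!
Commuting members and rank one partners in classes of root subgroups.
-/

set_option autoImplicit false

open Cfsg CfsgLib.RankOne
open scoped commutatorElement

namespace CfsgLib.RootGroups

variable {G : Type*} [Group G] {S : Set (Subgroup G)} {A C P Q X : Subgroup G}

lemma mem_centralizingMembers_iff : X ∈ centralizingMembers S A ↔ X ∈ S ∧ ⁅X, A⁆ = ⊥ := by
  rw [Subgroup.commutator_eq_bot_iff_le_centralizer]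
  rfl

lemma self_mem_centralizingMembers (hS : IsRootSubgroupSet S) (hA : A ∈ S) : A ∈ centralizingMembers S A :=
  mem_centralizingMembers_iff.2 ⟨hA, commutator_eq_bot_iff.2 fun _ ha _ hb => mul_comm_of_mem hS hA ha hb⟩

lemma conj_commutator_eq_bot (g : G) : ⁅conjBy A g, conjBy C g⁆ = ⊥ ↔ ⁅A, C⁆ = ⊥ := by
  show ⁅A.map _, C.map _⁆ = ⊥ ↔ _
  rw [← Subgroup.map_commutator, Subgroup.map_eq_bot_iff_of_injective _ (MulEquiv.injective _)]

lemma conjBy_eq_self_of_commute (h : ⁅X, A⁆ = ⊥) {g : G} (hg : g ∈ X) : conjBy A g = A :=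
  conjBy_eq_self_iff.2 <| Subgroup.centralizer_le_normalizer (s := (A : Set G))
    ((Subgroup.commutator_eq_bot_iff_le_centralizer.1 h) hg)

lemma sup_conjBy_eq (h : IsRankOnePair C Q) {q : G} (hq : q ∈ Q) (hq1 : q ≠ 1) :
    C ⊔ conjBy C q = C ⊔ Q :=
  (opp h left_mem_unipotent (conjBy_mem_unipotent left_mem_unipotent (Subgroup.mem_sup_right hq))
    (conjBy_ne (RankOnePair_symm h) hq hq1).symm).2.1

/-- If `A` and `⁅A, Q⁆` commute with `C` and `C, Q` form a rank one pair then `A` commutes with `Q`. -/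
lemma commute_of_commute (hAC : ⁅A, C⁆ = ⊥) (hp : IsRankOnePair C Q) (hM : ⁅⁅A, Q⁆, C⁆ = ⊥) :
    ⁅A, Q⁆ = ⊥ := by
  rw [commutator_eq_bot_iff] at hAC hM
  obtain ⟨q, hq, hq1⟩ := nonidentity_left (RankOnePair_symm hp)
  rw [commutator_eq_bot_iff]
  intro a ha y hy
  have hle : C ⊔ conjBy C q ≤ Subgroup.centralizer {a} := by
    refine sup_le (fun c hc => Subgroup.mem_centralizer_singleton_iff.2 (hAC a ha c hc).symm) ?_
    rintro _ ⟨c, hc, rfl⟩
    refine Subgroup.mem_centralizer_singleton_iff.2 ?_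
    have e1 : Commute (a⁻¹ * q⁻¹ * a * q) c :=
      hM _ (by simpa using commutator_mem (A.inv_mem ha) (Q.inv_mem hq)) c hc
    have e2 : Commute a c := hAC a ha c hc
    have e3 := (e2.mul_left e1).map (MulAut.conj q).toMonoidHom
    simp only [MulEquiv.coe_toMonoidHom, MulAut.conj_apply] at e3
    have e4 : q * (a * (a⁻¹ * q⁻¹ * a * q)) * q⁻¹ = a := by group
    rw [e4] at e3
    exact e3.symm.eq
  rw [sup_conjBy_eq hp hq hq1] at hle
  exact (Subgroup.mem_centralizer_singleton_iff.1 (hle (Subgroup.mem_sup_right hy))).symm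

/-- For a pair in the commutator case some rank one partner of `A` commutes with `C`. -/
lemma exists_rankOne_commuting (hS : IsRootSubgroupClass S) (hnd : IsNondegenerateRootSet S) (hA : A ∈ S)
    (hC : C ∈ S) (hcase : RootCommutatorCase S A C) :
    ∃ P ∈ rankOnePartners S A, ⁅C, P⁆ = ⊥ ∧ ⁅⁅A, C⁆, P⁆ = C := by
  have hni := class_not_isolated hS hnd
  have hR := hcase.1
  have hcs : ⁅C, A⁆ ∈ S := by rw [Subgroup.commutator_comm]; exact hR
  have hlp : C ∈ linePartners S ⁅A, C⁆ := by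
    rw [Subgroup.commutator_comm]
    exact linePartners_commutator hS.1 hC (hni C hC) hA hcs
  obtain ⟨P, hP, hp, hnr⟩ := exists_partner_axis hS hnd hR hlp
  have hN := line_of_linePartners hS.1 hR hlp
  obtain ⟨heq, -⟩ := axis_eq hS.1 hN (A := ⁅A, C⁆) (D := C) ⟨hR, le_sup_left⟩ ⟨hC, le_sup_right⟩ hlp.1.2.1 hP
    hp hnr (hni C hC)
  have hcP := case_of_not_rankOne hS.1 hC hP hnr
    (hN.not_commute hS.1 ⟨hR, le_sup_left⟩ ⟨hC, le_sup_right⟩ hlp.1.2.1 hP hp)
  have hDC : ⁅⁅C, P⁆, ⁅C, A⁆⁆ = C := by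
    rw [Subgroup.commutator_comm C A, Subgroup.commutator_comm]
    exact heq
  exact ⟨⁅C, P⁆, ⟨hcP.1, (Cfsg.Agent.S5036.result hS.1 hC hA hcs hcP.1 hDC).1⟩,
    commutator_eq_bot_iff.2 fun x hx y hy => (case_comm_left hcP hy hx).symm, heq⟩

/-- If all rank one partners of `A` are partners of `C`, no member commuting with `A` is in the commutator case
with `C`. -/
lemma not_case_of_partners_subset (hS : IsRootSubgroupClass S) (hnd : IsNondegenerateRootSet S) (hA : A ∈ S)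
    (hC : C ∈ S) (hΩ : rankOnePartners S A ⊆ rankOnePartners S C) (hAC : ⁅A, C⁆ = ⊥) (hX : X ∈ S)
    (hXA : ⁅X, A⁆ = ⊥) : ¬ RootCommutatorCase S C X := by
  intro hcase
  have hni := class_not_isolated hS hnd
  have hlR := linePartners_symm hC (B := ⁅C, X⁆)
  have hR := hcase.1
  have hlp : C ∈ linePartners S ⁅C, X⁆ := linePartners_commutator hS.1 hC (hni C hC) hX hR
  have hmem := (Cfsg.Agent.S5029.result hS.1 (hni C hC) hC hX hR).1
  -- `⁅C, X⁆` is the axis of every partner of `A`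
  have hR0 : ∀ P ∈ rankOnePartners S A, ¬ IsRankOnePair ⁅C, X⁆ P := by
    intro P hP hr
    obtain ⟨D, hD, -, -, hnr⟩ := exists_axis hS.1 (line_of_linePartners hS.1 hC (linePartners_symm hR hlp))
      (A := C) (B := ⁅C, X⁆) ⟨hC, le_sup_left⟩ ⟨hR, le_sup_right⟩ hlp.1.2.1.symm rfl hP.1 (hΩ hP).2
      (fun D hD => hni D hD.1)
    rw [hmem] at hD
    rcases hD with ⟨x, hx, rfl⟩ | rfl
    · have h1 : conjBy P x⁻¹ ∈ rankOnePartners S A := ⟨hS.1.conj_mem P hP.1 _, by
        have := isRankOnePair_conj hP.2 x⁻¹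
        rwa [conjBy_eq_self_of_commute hXA (X.inv_mem hx)] at this⟩
      have h2 := isRankOnePair_conj (hΩ h1).2 x
      rw [conjBy_conjBy P, mul_inv_cancel, conjBy_one] at h2
      exact hnr h2
    · exact hnr hr
  have hcs := rootCommutatorCase_symm hcase
  obtain ⟨Y, hY, hCY, hRY⟩ := exists_rankOne_commuting hS hnd hX hC hcs
  obtain ⟨x, hx, hx1⟩ := exists_nonid hS.1 hX
  obtain ⟨y, hy, -, he⟩ := hY.2.cond_left x hx hx1
  set k := y * x⁻¹ with hk
  have hkY : conjBy Y k = X := by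
    rw [hk, ← conjBy_conjBy, ← he, conjBy_conjBy, mul_inv_cancel, conjBy_one]
  have hcfg : Cfsg.Agent.S5036.Config S C X ⁅X, C⁆ Y :=
    ⟨hS.1, hC, hX, hcs.1, hY.1, rfl, by rw [Subgroup.commutator_comm]; exact hRY⟩
  have hkC : conjBy C k = ⁅C, X⁆ := by
    have h1 := hcfg.fam_conjD (E := conjBy C x⁻¹) (Or.inl ⟨x⁻¹, X.inv_mem hx, rfl⟩) hy
    rw [conjBy_conjBy, ← hk] at h1
    rcases h1 with ⟨x', hx', h1⟩ | h1
    · exfalso
      refine hS.1.ne_bot _ hR ?_
      refine (conj_commutator_eq_bot x').1 ?_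
      rw [conjBy_eq_self_of_mem hx', show conjBy C x' = conjBy C k from h1, ← hkY, conj_commutator_eq_bot]
      exact hCY
    · rw [Set.mem_singleton_iff] at h1
      rw [h1, Subgroup.commutator_comm]
  have hkA : conjBy A k = conjBy A y := by
    rw [hk, ← conjBy_conjBy, conjBy_eq_self_of_commute hXA (X.inv_mem hx)]
  -- the partners of `A ^ y` are partners of `⁅C, X⁆`
  have hΩy : ∀ P ∈ S, IsRankOnePair (conjBy A y) P → IsRankOnePair ⁅C, X⁆ P := by
    intro P hP hr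
    rw [← hkA] at hr
    have h1 := isRankOnePair_conj hr k⁻¹
    rw [conjBy_inv_conjBy] at h1
    have h2 := isRankOnePair_conj (hΩ ⟨hS.1.conj_mem P hP _, h1⟩).2 k
    rwa [hkC, conjBy_conjBy P, mul_inv_cancel, conjBy_one] at h2
  rcases hS.1.pair A hA Y hY.1 with hc | hr | hcA
  · obtain ⟨P, hP, hp⟩ := exists_partner (hni A hA) hA
    rw [conjBy_eq_self_of_commute (by rwa [Subgroup.commutator_comm]) hy] at hΩy
    exact hR0 P ⟨hP, hp⟩ (hΩy P hP hp)
  · exact commutator_ne_bot (hΩ ⟨hY.1, hr⟩).2 hCY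
  · have hT : ⁅A, Y⁆ ∈ linePartners S A :=
      linePartners_symm hcA.1 (linePartners_commutator hS.1 hA (hni A hA) hY.1 hcA.1)
    obtain ⟨P, hP, hp, hnrP⟩ := exists_partner_axis hS hnd hA hT
    obtain ⟨a, ha, ha1⟩ := exists_nonid hS.1 hA
    have hmemy : a * (a⁻¹ * y * a⁻¹⁻¹ * y⁻¹) ∈ conjBy A y := by
      convert conj_mem_conjBy (g := y) ha using 1
      group
    have hq := (rankOne_or hS.1 hA hP hcA.1 (hS.1.conj_mem A hA y) hp ha ha1
      (commutator_mem (A.inv_mem ha) hy) hmemy).resolve_left hnrP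
    exact hR0 P ⟨hP, hp⟩ (hΩy P hP hq)

/-- A member whose commuting members all commute with `C ≠ A` in a non-degenerate class. -/
lemma centralizing_eq_of_subset (hS : IsRootSubgroupClass S) (hnd : IsNondegenerateRootSet S) (hA : A ∈ S)
    (hC : C ∈ S) (h : centralizingMembers S A ⊆ centralizingMembers S C) :
    centralizingMembers S A = centralizingMembers S C ∧ rankOnePartners S A ⊆ rankOnePartners S C := by
  have hni := class_not_isolated hS hnd
  have hAC : ⁅A, C⁆ = ⊥ := (mem_centralizingMembers_iff.1 (h (self_mem_centralizingMembers hS.1 hA))).2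
  have hcomm : ∀ {Z : Subgroup G}, Z ∈ S → ⁅Z, A⁆ = ⊥ → ⁅Z, C⁆ = ⊥ := fun hZ hZA =>
    (mem_centralizingMembers_iff.1 (h (mem_centralizingMembers_iff.2 ⟨hZ, hZA⟩))).2
  have hB : ∀ B ∈ rankOnePartners S A, ⁅B, C⁆ ≠ ⊥ := by
    intro B hB hBC
    have htop : (⊤ : Subgroup G) ≤ Subgroup.centralizer (C : Set G) := by
      rw [← Cfsg.Agent.S5042.result hS hnd hA hB]
      refine sup_le (iSup₂_le fun Z hZ => ?_) (Subgroup.commutator_eq_bot_iff_le_centralizer.1 hBC)
      exact Subgroup.commutator_eq_bot_iff_le_centralizer.1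
        (hcomm hZ.1.1 (by rw [Subgroup.commutator_comm]; exact hZ.1.2.2))
    obtain ⟨P, hP, hp⟩ := exists_partner (hni C hC) hC
    refine commutator_ne_bot (RankOnePair_symm hp) ?_
    exact Subgroup.commutator_eq_bot_iff_le_centralizer.2 (le_trans le_top htop)
  have hsub : rankOnePartners S A ⊆ rankOnePartners S C := by
    rintro P ⟨hP, hp⟩
    refine ⟨hP, ?_⟩
    rcases hS.1.pair C hC P hP with hc | hr | hcase
    · exact absurd (by rwa [Subgroup.commutator_comm]) (hB P ⟨hP, hp⟩)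
    · exact hr
    exfalso
    have hR := hcase.1
    have hRC : ⁅⁅C, P⁆, C⁆ = ⊥ := commutator_eq_bot_iff.2 fun x hx y hy => case_comm_left hcase hx hy
    rcases hS.1.pair A hA ⁅C, P⁆ hR with hc | hr | hcA
    · exact hS.1.ne_bot _ hR (commute_of_commute (by rwa [Subgroup.commutator_comm]) hp
        (by rwa [Subgroup.commutator_comm]))
    · exact hB _ ⟨hR, hr⟩ hRC
    have hPR : P ∈ linePartners S ⁅C, P⁆ := by
      rw [Subgroup.commutator_comm]
      exact linePartners_commutator hS.1 hP (hni P hP) hC (by rw [Subgroup.commutator_comm]; exact hR)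
    have hnRA : ¬ IsRankOnePair ⁅C, P⁆ A := fun e => not_case hS.1 hR (RankOnePair_symm e) hcA
    obtain ⟨heq, hcPL⟩ := axis_eq hS.1 (line_of_linePartners hS.1 hR hPR) (A := P) (D := ⁅C, P⁆)
      ⟨hP, le_sup_right⟩ ⟨hR, le_sup_left⟩ hPR.1.2.1.symm hA (RankOnePair_symm hp) hnRA (hni _ hR)
    obtain ⟨Q, hQ, -, hRQ⟩ := exists_rankOne_commuting hS hnd hC hP hcase
    rw [Subgroup.commutator_comm ⁅C, P⁆ A] at heq hcPL
    have hLQ : IsRankOnePair ⁅A, ⁅C, P⁆⁆ Q :=
      (Cfsg.Agent.S5036.result hS.1 hP hcA.1 hcPL.1 hQ.1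
        (by rw [heq, Subgroup.commutator_comm]; exact hRQ)).1
    have hlA : A ∈ linePartners S ⁅A, ⁅C, P⁆⁆ := linePartners_commutator hS.1 hA (hni A hA) hR hcA.1
    obtain ⟨D, hD, hDL, -, hnr⟩ := exists_axis hS.1 (line_of_linePartners hS.1 hcA.1 hlA) (A := ⁅A, ⁅C, P⁆⁆)
      (B := A) ⟨hcA.1, le_sup_left⟩ ⟨hA, le_sup_right⟩ hlA.1.2.1 rfl hQ.1 hLQ (fun D hD => hni D hD.1)
    rw [sup_comm, (Cfsg.Agent.S5029.result hS.1 (hni A hA) hA hR hcA.1).1] at hD
    rcases hD with ⟨r, hr, rfl⟩ | hD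
    swap
    · exact hDL hD
    have hnA : ¬ IsRankOnePair A (conjBy Q r⁻¹) := fun e => hnr <| by
      have := isRankOnePair_conj e r
      rwa [conjBy_conjBy Q, mul_inv_cancel, conjBy_one] at this
    have hQ' : IsRankOnePair C (conjBy Q r⁻¹) := by
      have := isRankOnePair_conj hQ.2 r⁻¹
      rwa [conjBy_eq_self_of_commute hRC (inv_mem hr)] at this
    have hQS := hS.1.conj_mem Q hQ.1 r⁻¹
    rcases hS.1.pair A hA _ hQS with hc | hr' | hcQ
    · exact commutator_ne_bot (RankOnePair_symm hQ') (hcomm hQS (by rwa [Subgroup.commutator_comm]))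
    · exact hnA hr'
    · exact hS.1.ne_bot _ hcQ.1 (commute_of_commute hAC hQ'
        (hcomm hcQ.1 (commutator_eq_bot_iff.2 fun x hx y hy => case_comm_left hcQ hx hy)))
  refine ⟨Set.Subset.antisymm h fun Z hZ => ?_, hsub⟩
  obtain ⟨hZS, hZC⟩ := mem_centralizingMembers_iff.1 hZ
  refine mem_centralizingMembers_iff.2 ⟨hZS, ?_⟩
  rcases hS.1.pair A hA Z hZS with hc | hr | hcase
  · rwa [Subgroup.commutator_comm]
  · exact absurd hZC (hB Z ⟨hZS, hr⟩)
  exfalso
  obtain ⟨M, hM, -, hLM⟩ := exists_rankOne_commuting hS hnd hA hZS hcase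
  have hLC : ⁅⁅A, Z⁆, C⁆ = ⊥ :=
    hcomm hcase.1 (commutator_eq_bot_iff.2 fun x hx y hy => case_comm_left hcase hx hy)
  have h0 := commute_of_commute hLC (hsub hM).2 (by rw [hLM]; exact hZC)
  rw [hLM] at h0
  exact hS.1.ne_bot Z hZS h0

end CfsgLib.RootGroups
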