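import Cfsg.Agent.S5033

/-!
Powers in special rank one pairs with abelian unipotent subgroups.
-/

set_option autoImplicit false

open Cfsg CfsgLib.RankOne CfsgLib.RootGroups
open Cfsg.Agent.S5033 (gp gp_spec gp_eq gp_inj gp_inv eval)

namespace CfsgLib.RankOnePower

variable {G : Type*} [Group G] {A B : Subgroup G}

/-- The data of a special pair with abelian sides. -/
structure AbPair (A B : Subgroup G) : Prop where
  special : IsSpecialRankOnePair A B
  commA : ∀ p ∈ A, ∀ q ∈ A, p * q = q * p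
  commB : ∀ p ∈ B, ∀ q ∈ B, p * q = q * p

lemma AbPair.symm (h : AbPair A B) : AbPair B A :=
  ⟨special_of_invPairs (RankOnePair_symm h.special.1)
    (invPairs_symm (invPairs_of_identity h.special.1 h.special.2)), h.commB, h.commA⟩

lemma gp_gp (h : AbPair A B) {z : G} (hz : z ∈ A) (hz1 : z ≠ 1) : gp B A (gp A B z) = z := by
  obtain ⟨h1, h2, h3⟩ := gp_spec h.special.1 hz hz1
  exact gp_eq (RankOnePair_symm h.special.1) h1 h2 hz h3.symm

/-- The power formula at `n`. -/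
def PowerAt (n : ℕ) : Prop :=
  ∀ {A B : Subgroup G}, AbPair A B → ∀ z ∈ A, z ^ n ≠ 1 → gp A B (z ^ n) ^ n = gp A B z

lemma pow_gp_eq_one (h : AbPair A B) {n : ℕ} (ih : ∀ m, m < n + 1 → PowerAt (G := G) m) {z : G}
    (hz : z ∈ A) (hz1 : z ≠ 1) (hn : n ≠ 0) (hzn : z ^ n = 1) : gp A B z ^ n = 1 := by
  have hfin : IsOfFinOrder z := isOfFinOrder_iff_pow_eq_one.2 ⟨n, Nat.pos_of_ne_zero hn, hzn⟩
  obtain ⟨k, hk⟩ : ∃ k, orderOf z = k + 1 := ⟨orderOf z - 1, (Nat.succ_pred_eq_of_pos hfin.orderOf_pos).symm⟩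
  have hdvd : orderOf z ∣ n := orderOf_dvd_of_pow_eq_one hzn
  have hle : k + 1 ≤ n := hk ▸ Nat.le_of_dvd (Nat.pos_of_ne_zero hn) hdvd
  have hzk : z ^ k = z⁻¹ := by
    refine eq_inv_of_mul_eq_one_left ?_
    rw [← pow_succ, ← hk, pow_orderOf_eq_one]
  have h1 := ih k (by omega) h z hz (by rw [hzk]; exact inv_ne_one.2 hz1)
  rw [hzk, gp_inv h.special hz hz1, inv_pow, inv_eq_iff_mul_eq_one, ← pow_succ, ← hk] at h1
  obtain ⟨t, ht⟩ := hdvd
  rw [ht, pow_mul, h1, one_pow]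

lemma powerAt (n : ℕ) : PowerAt (G := G) n := by
  induction n using Nat.strong_induction_on with
  | _ n ih =>
    intro A B h z hz hzn
    rcases n with _ | n
    · exact absurd (pow_zero z) hzn
    rcases Nat.eq_zero_or_pos n with rfl | hn
    · simp
    have hr := h.special.1
    have hz1 : z ≠ 1 := fun e => hzn (by rw [e, one_pow])
    obtain ⟨hb, hb1, heb⟩ := gp_spec hr hz hz1
    by_cases hzn' : z ^ n = 1
    · rw [pow_succ z, hzn', one_mul, pow_succ, pow_gp_eq_one h ih hz hz1 hn.ne' hzn', one_mul]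
    have hbn : gp A B z ^ n ≠ 1 := by
      intro e
      apply hzn'
      have := pow_gp_eq_one h.symm ih hb hb1 hn.ne' e
      rwa [gp_gp h hz hz1] at this
    obtain ⟨hx', hx'1, hex'⟩ := gp_spec (RankOnePair_symm hr) (B.pow_mem hb n) hbn
    set x' := gp B A (gp A B z ^ n) with hx'def
    have hxn : x' ^ n = z := by rw [hx'def, ih n (lt_add_one n) h.symm _ hb hbn, gp_gp h hz hz1]
    have hgx' : gp A B x' = gp A B z ^ n := gp_eq hr hx' hx'1 (B.pow_mem hb n) hex'.symm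
    have hza : z ^ n * z ≠ 1 := by rwa [← pow_succ]
    obtain ⟨hy, -, hey⟩ := gp_spec hr (A.mul_mem (A.pow_mem hz n) hz) hza
    set m := gp A B z * z⁻¹ * gp A B z with hm
    have hmz : m * z * m⁻¹ = (gp A B z)⁻¹ := by
      have hs := h.special.2 z hz hz1 _ hb hb1 heb
      set b := gp A B z
      have hbraid : b * z⁻¹ * b = z⁻¹ * b * z⁻¹ := by
        calc b * z⁻¹ * b = (z * (z⁻¹ * b⁻¹ * z) * b⁻¹)⁻¹ := by group
          _ = (z * (b⁻¹ * z * b) * b⁻¹)⁻¹ := by rw [hs]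
          _ = _ := by group
      calc m * z * m⁻¹ = (b * z⁻¹ * b) * z * (b * z⁻¹ * b)⁻¹ := by rw [hm]
        _ = (z⁻¹ * b * z⁻¹) * z * (b * z⁻¹ * b)⁻¹ := by rw [← hbraid]
        _ = (z⁻¹ * b * z⁻¹) * z * b⁻¹ * z * b⁻¹ := by group
        _ = b⁻¹ := by group
    have hu : m * z ^ n * m⁻¹ = ((gp A B z) ^ n)⁻¹ := by rw [← conj_pow, hmz, inv_pow]
    obtain ⟨hne, hw⟩ := eval h.special h.commB hz hz1 hb hb1 heb hy hey hx' hx'1 (B.pow_mem hb n) hbn hex'.symm hu
    have e : z * x' = x' ^ (n + 1) := by rw [pow_succ, hxn]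
    rw [e] at hne hw
    obtain ⟨hq, hq1, heq⟩ := gp_spec hr (A.pow_mem hx' (n + 1)) hne
    have h1 := hw _ hq hq1 heq
    have h2 : gp A B (z ^ n * z) ^ n = gp A B (x' ^ (n + 1)) := by
      have e2 : (x' ^ (n + 1)) ^ n = z ^ n * z := by
        rw [← pow_mul, Nat.mul_comm, pow_mul, hxn, pow_succ]
      have := ih n (lt_add_one n) h _ (A.pow_mem hx' (n + 1)) (by rw [e2]; exact hza)
      rwa [e2] at this
    rw [← h2] at h1
    rw [pow_succ z, pow_succ]
    exact h1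

/-- `n`-th powers are injective outside the elements of order dividing `n`. -/
lemma pow_inj (h : AbPair A B) {n : ℕ} {y z : G} (hy : y ∈ A) (hz : z ∈ A) (hzn : z ^ n ≠ 1)
    (he : y ^ n = z ^ n) : y = z := by
  have h1 := powerAt n h z hz hzn
  have h2 := powerAt n h y hy (he ▸ hzn)
  rw [he, h1] at h2
  exact (gp_inj h.special.1 hz (fun e => hzn (by rw [e, one_pow])) hy
    (fun e => hzn (by rw [← he, e, one_pow])) h2).symm

lemma exists_root (h : AbPair A B) {n : ℕ} {z : G} (hz : z ∈ A) (hz1 : z ≠ 1)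
    (hne : gp A B z ^ n ≠ 1) : ∃ c ∈ A, c ^ n = z := by
  obtain ⟨hb, hb1, -⟩ := gp_spec h.special.1 hz hz1
  refine ⟨gp B A (gp A B z ^ n), (gp_spec (RankOnePair_symm h.special.1) (B.pow_mem hb n) hne).1, ?_⟩
  rw [powerAt n h.symm _ hb hne, gp_gp h hz hz1]

lemma exponent_of_torsion (h : AbPair A B) {p : ℕ} {z₀ : G} (hz₀ : z₀ ∈ A) (hz₀1 : z₀ ≠ 1)
    (hzp : z₀ ^ p = 1) : ∀ z ∈ A, z ^ p = 1 := by
  intro z hz
  by_contra hne
  refine hz₀1 (mul_eq_left.1 (pow_inj h (A.mul_mem hz hz₀) hz hne ?_))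
  rw [(show Commute z z₀ from h.commA z hz z₀ hz₀).mul_pow, hzp, mul_one]

end CfsgLib.RankOnePower
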