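import Cfsg.Agent.RootGroups.Commuting

/-!
Special rank one pairs among root subgroups: the criterion by inverse pairs, square roots, and the configuration of two
commuting members `A`, `C` with a common rank one partner `D`.
-/

set_option autoImplicit false

open Cfsg CfsgLib.RankOne
open scoped commutatorElement

namespace CfsgLib.RootGroups

variable {G : Type*} [Group G] {S : Set (Subgroup G)} {A B C D : Subgroup G}

/-- Inverting a matched pair gives a matched pair. -/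
def InvPairs (A B : Subgroup G) : Prop :=
  ∀ a ∈ A, a ≠ 1 → ∀ b ∈ B, b ≠ 1 → conjBy A b⁻¹ = conjBy B a⁻¹ → conjBy A b = conjBy B a

lemma invPairs_symm (h : InvPairs A B) : InvPairs B A :=
  fun b hb hb1 a ha ha1 he => (h a ha ha1 b hb hb1 he.symm).symm

/-- The criterion for a special rank one pair. -/
lemma special_of_invPairs (hp : IsRankOnePair A B) (h : InvPairs A B) : IsSpecialRankOnePair A B := by
  refine ⟨hp, fun a ha ha1 b hb hb1 he => ?_⟩
  have he' := h a ha ha1 b hb hb1 he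
  have hBm : conjBy B (b * a⁻¹ * b) = A := by
    rw [← conjBy_conjBy, ← conjBy_conjBy, conjBy_eq_self_of_mem hb, ← he, conjBy_conjBy, mul_inv_cancel,
      conjBy_one]
  have hAm : conjBy A (b * a⁻¹ * b) = B := by
    rw [← conjBy_conjBy, he', conjBy_conjBy, inv_mul_cancel_right, conjBy_eq_self_of_mem hb]
  set m := b * a⁻¹ * b with hm
  have hβ : m * a * m⁻¹ ∈ B := hAm ▸ conj_mem_conjBy ha
  have hinj : conjBy A (m * a⁻¹ * m⁻¹) = conjBy A b := by
    have e1 : conjBy A m⁻¹ = B := by rw [← hBm, conjBy_inv_conjBy]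
    rw [← conjBy_conjBy, e1, ← conjBy_conjBy, ← he, conjBy_conjBy,
      show m * b⁻¹ = b * a⁻¹ by rw [hm, mul_inv_cancel_right], ← conjBy_conjBy,
      conjBy_eq_self_of_mem (A.inv_mem ha)]
  have h1 : m * a⁻¹ * m⁻¹ = b := conj_injective (RankOnePair_symm hp)
    (by simpa [mul_assoc] using B.inv_mem hβ) hb hinj
  have h2 : a⁻¹ * b * a⁻¹ = b * a⁻¹ * b := by
    refine mul_left_cancel (a := b) ?_
    calc b * (a⁻¹ * b * a⁻¹) = (m * a⁻¹ * m⁻¹) * m := by rw [hm]; group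
      _ = b * (b * a⁻¹ * b) := by rw [h1]
  calc b⁻¹ * a * b = a⁻¹ * (a⁻¹ * b * a⁻¹)⁻¹ * b := by group
    _ = a⁻¹ * (b * a⁻¹ * b)⁻¹ * b := by rw [h2]
    _ = a⁻¹ * b⁻¹ * a := by group

/-- The special identity in the form `b a b⁻¹ = a b⁻¹ a⁻¹`. -/
lemma special_flip {a b : G} (h : b⁻¹ * a * b = a⁻¹ * b⁻¹ * a) : b * a * b⁻¹ = a * b⁻¹ * a⁻¹ := by
  calc b * a * b⁻¹ = b * a * (b⁻¹ * a * b) * (b⁻¹ * a⁻¹) := by group
    _ = b * a * (a⁻¹ * b⁻¹ * a) * (b⁻¹ * a⁻¹) := by rw [h]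
    _ = _ := by group

lemma invPairs_of_identity (hp : IsRankOnePair A B)
    (h : ∀ a ∈ A, a ≠ 1 → ∀ b ∈ B, b ≠ 1 → conjBy A b⁻¹ = conjBy B a⁻¹ → b⁻¹ * a * b = a⁻¹ * b⁻¹ * a) :
    InvPairs A B := by
  intro a ha ha1 b hb hb1 he
  refine eq_of_commute hp (conj_mem_conjBy ha) (conj_mem_conjBy (B.inv_mem hb)) (conj_ne_one ha1)
    (conj_ne_one (inv_ne_one.2 hb1))
    (conjBy_mem_unipotent left_mem_unipotent (Subgroup.mem_sup_right hb))
    (conjBy_mem_unipotent (right_mem_unipotent hp) (Subgroup.mem_sup_left ha)) ?_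
  rw [special_flip (h a ha ha1 b hb hb1 he)]

lemma ne_one_of_pair_left (hp : IsRankOnePair A B) {a b : G} (he : conjBy A b⁻¹ = conjBy B a⁻¹)
    (hb : b ∈ B) : a ≠ 1 := by
  rintro rfl
  rw [inv_one, conjBy_one, conjBy_eq_iff, inv_inv, conjBy_eq_self_of_mem hb] at he
  exact hp.ne he

/-- The partner of `a²` is a square root of the partner of `a`. -/
lemma sqrt_pair (h : IsSpecialRankOnePair A B) (hcB : ∀ x ∈ B, ∀ y ∈ B, x * y = y * x) {a b η : G}
    (ha : a ∈ A) (ha2 : a * a ≠ 1) (hb : b ∈ B) (he : conjBy A b⁻¹ = conjBy B a⁻¹)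
    (hη : η ∈ B) (heη : conjBy A η⁻¹ = conjBy B (a * a)⁻¹) : η * η = b := by
  obtain ⟨hp, hs⟩ := h
  have hinv := invPairs_of_identity hp hs
  have ha1 : a ≠ 1 := fun e => ha2 (by rw [e, mul_one])
  have hη1 : η ≠ 1 := by
    rintro rfl
    rw [inv_one, conjBy_one] at heη
    rw [eq_comm, conjBy_eq_iff, inv_inv, conjBy_eq_self_of_mem (A.mul_mem ha ha)] at heη
    exact hp.ne heη.symm
  have hb1 : b ≠ 1 := by
    rintro rfl
    rw [inv_one, conjBy_one] at he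
    rw [eq_comm, conjBy_eq_iff, inv_inv, conjBy_eq_self_of_mem ha] at he
    exact hp.ne he.symm
  have e' := hinv a ha ha1 b hb hb1 he
  have eη' := hinv (a * a) (A.mul_mem ha ha) ha2 η hη hη1 heη
  have hflip := special_flip (hs a ha ha1 b hb hb1 he)
  have e1 : a⁻¹ * b⁻¹ = b⁻¹ * a * b * a⁻¹ := by
    calc a⁻¹ * b⁻¹ = b⁻¹ * (b * a⁻¹ * b⁻¹) := by group
      _ = b⁻¹ * (b * a * b⁻¹)⁻¹ := by group
      _ = b⁻¹ * (a * b⁻¹ * a⁻¹)⁻¹ := by rw [hflip]
      _ = _ := by group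
  have key : conjBy A η⁻¹ = conjBy A (b⁻¹ * η) := by
    calc conjBy A η⁻¹ = conjBy (conjBy B a⁻¹) a⁻¹ := by rw [heη, conjBy_conjBy, mul_inv_rev]
      _ = conjBy A (a⁻¹ * b⁻¹) := by rw [← he, conjBy_conjBy]
      _ = conjBy A (b⁻¹ * a * b * a⁻¹) := by rw [e1]
      _ = conjBy (conjBy A a⁻¹) (b⁻¹ * a * b) := by rw [conjBy_conjBy]
      _ = conjBy (conjBy (conjBy A b) a) b⁻¹ := by
          rw [conjBy_eq_self_of_mem (A.inv_mem ha), conjBy_conjBy A, conjBy_conjBy A, ← mul_assoc]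
      _ = conjBy (conjBy B (a * a)) b⁻¹ := by rw [e', conjBy_conjBy B]
      _ = conjBy A (b⁻¹ * η) := by rw [← eη', conjBy_conjBy]
  have h2 := conj_injective (RankOnePair_symm hp) (B.inv_mem hη) (B.mul_mem (B.inv_mem hb) hη) key
  calc η * η = (b * η⁻¹ * η) * 1 := by
        rw [mul_one, inv_mul_cancel_right]
        calc η * η = b * (b⁻¹ * η) * η := by group
          _ = b * η⁻¹ * η := by rw [← h2]
          _ = b := by rw [inv_mul_cancel_right]
    _ = b := by group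

/-- In a special pair squaring is injective on elements of order at least three. -/
lemma eq_of_sq_eq (h : IsSpecialRankOnePair A B) (hcB : ∀ x ∈ B, ∀ y ∈ B, x * y = y * x) {x y : G}
    (hx : x ∈ A) (hy : y ∈ A) (hx2 : x * x ≠ 1) (he : x * x = y * y) : x = y := by
  have hx1 : x ≠ 1 := fun e => hx2 (by rw [e, mul_one])
  have hy1 : y ≠ 1 := fun e => hx2 (by rw [he, e, mul_one])
  obtain ⟨b, hb, -, heb⟩ := h.1.cond_left x hx hx1
  obtain ⟨b', hb', -, heb'⟩ := h.1.cond_left y hy hy1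
  obtain ⟨η, hη, -, heη⟩ := h.1.cond_left (x * x) (A.mul_mem hx hx) hx2
  have h1 := sqrt_pair h hcB hx hx2 hb heb hη heη
  have h2 := sqrt_pair h hcB hy (he ▸ hx2) hb' heb' hη (by rw [← he]; exact heη)
  have h3 : conjBy B x⁻¹ = conjBy B y⁻¹ := by rw [← heb, ← heb', ← h1, ← h2]
  exact inv_injective (conj_injective h.1 (A.inv_mem hx) (A.inv_mem hy) h3)

/-- Two commuting members `A ≠ C` with a common partner `D` move `D` differently. -/
lemma conjBy_ne_of_commute (hS : IsRootSubgroupSet S) (hA : A ∈ S) (hAC : ⁅A, C⁆ = ⊥) (hne : A ≠ C)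
    (hp : IsRankOnePair A D) (hq : IsRankOnePair C D) {x y : G} (hx : x ∈ A) (hx1 : x ≠ 1) (hy : y ∈ C) :
    conjBy D x ≠ conjBy D y := by
  intro e
  by_cases hy1 : y = 1
  · rw [hy1, conjBy_one] at e
    exact conjBy_ne hp hx hx1 e
  obtain ⟨w, hw, -, hwe⟩ := hp.cond_left x⁻¹ (A.inv_mem hx) (inv_ne_one.2 hx1)
  obtain ⟨v, hv, -, hve⟩ := hq.cond_left y⁻¹ (C.inv_mem hy) (inv_ne_one.2 hy1)
  rw [inv_inv] at hwe hve
  rw [e, ← hve] at hwe
  have h2 : A = conjBy C (w * v⁻¹) := by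
    have := congrArg (fun Z => conjBy Z w) hwe
    simp only [conjBy_conjBy, mul_inv_cancel, conjBy_one] at this
    exact this
  by_cases hu : w * v⁻¹ = 1
  · rw [hu, conjBy_one] at h2; exact hne h2
  apply commutator_ne_bot (RankOnePair_symm hp)
  rw [Subgroup.commutator_comm, Subgroup.commutator_eq_bot_iff_le_centralizer]
  have hle : C ⊔ conjBy C (w * v⁻¹) ≤ Subgroup.centralizer (A : Set G) := sup_le
    (Subgroup.commutator_eq_bot_iff_le_centralizer.1 (by rwa [Subgroup.commutator_comm]))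
    (Subgroup.commutator_eq_bot_iff_le_centralizer.1 (by
      rw [← h2]; exact (mem_centralizingMembers_iff.1 (self_mem_centralizingMembers hS hA)).2))
  rw [sup_conjBy_eq hq (D.mul_mem hw (D.inv_mem hv)) hu] at hle
  rw [← Subgroup.commutator_eq_bot_iff_le_centralizer, Subgroup.commutator_comm,
    Subgroup.commutator_eq_bot_iff_le_centralizer]
  exact le_sup_right.trans hle

/-- Two commuting members `A ≠ C`, a common partner `D` and matched elements `a`, `c`, `δ`. -/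
structure Triple (S : Set (Subgroup G)) (A C D : Subgroup G) (a c δ : G) : Prop where
  root : IsRootSubgroupSet S
  memA : A ∈ S
  memC : C ∈ S
  memD : D ∈ S
  comm : ⁅A, C⁆ = ⊥
  ne : A ≠ C
  pA : IsRankOnePair A D
  pC : IsRankOnePair C D
  ha : a ∈ A
  ha1 : a ≠ 1
  hc : c ∈ C
  hc1 : c ≠ 1
  hδ : δ ∈ D
  eA : conjBy A δ⁻¹ = conjBy D a⁻¹
  eC : conjBy C δ⁻¹ = conjBy D c⁻¹

namespace Triple

variable {a c δ : G}

lemma symm (h : Triple S A C D a c δ) : Triple S C A D c a δ :=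
  ⟨h.root, h.memC, h.memA, h.memD, by rw [Subgroup.commutator_comm]; exact h.comm, h.ne.symm, h.pC, h.pA, h.hc,
    h.hc1, h.ha, h.ha1, h.hδ, h.eC, h.eA⟩

lemma commAC (h : Triple S A C D a c δ) {x y : G} (hx : x ∈ A) (hy : y ∈ C) : Commute x y :=
  commutator_eq_bot_iff.1 h.comm x hx y hy

lemma commd (h : Triple S A C D a c δ) {x : G} (hx : x ∈ A) : Commute x (c * a⁻¹) :=
  (h.commAC hx h.hc).mul_right (mul_comm_of_mem h.root h.memA hx (A.inv_mem h.ha))

/-- `D` commutes with its conjugate by `d⁻¹`, `d = c a⁻¹`. -/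
lemma hDd (h : Triple S A C D a c δ) : ⁅conjBy D (a * c⁻¹), D⁆ = ⊥ := by
  have h1 : ⁅conjBy D c⁻¹, conjBy D a⁻¹⁆ = ⊥ := by
    rw [← h.eA, ← h.eC, conj_commutator_eq_bot, Subgroup.commutator_comm]
    exact h.comm
  have h2 := (conj_commutator_eq_bot a).2 h1
  rwa [conjBy_conjBy, conjBy_conjBy, mul_inv_cancel, conjBy_one] at h2

lemma hDd_ne (h : Triple S A C D a c δ) : conjBy D (a * c⁻¹) ≠ D := fun e => by
  have e2 := congrArg (fun Z => conjBy Z a⁻¹) e
  simp only [conjBy_conjBy, inv_mul_cancel_left] at e2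
  exact conjBy_ne_of_commute h.root h.memA h.comm h.ne h.pA h.pC (A.inv_mem h.ha) (inv_ne_one.2 h.ha1)
    (C.inv_mem h.hc) e2.symm

lemma commD (h : Triple S A C D a c δ) {x y : G} (hx : x ∈ D) (hy : y ∈ D) :
    Commute ((c * a⁻¹)⁻¹ * x * (c * a⁻¹)) y := by
  refine commutator_eq_bot_iff.1 h.hDd _ ?_ y hy
  have := conj_mem_conjBy (g := a * c⁻¹) hx
  convert this using 1
  group

lemma commD' (h : Triple S A C D a c δ) {x y : G} (hx : x ∈ D) (hy : y ∈ D) :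
    Commute ((c * a⁻¹) * x * (c * a⁻¹)⁻¹) y := by
  have h1 := (h.commD hy hx).symm.map (MulAut.conj (c * a⁻¹)).toMonoidHom
  simp only [MulEquiv.coe_toMonoidHom, MulAut.conj_apply] at h1
  have e : c * a⁻¹ * ((c * a⁻¹)⁻¹ * y * (c * a⁻¹)) * (c * a⁻¹)⁻¹ = y := by group
  rwa [e] at h1

/-- `A` commutes with its conjugates by `x^{±1}`, `x = δ⁻¹ d δ`. -/
lemma hAx (h : Triple S A C D a c δ) : ⁅conjBy A (δ⁻¹ * (c * a⁻¹) * δ)⁻¹, A⁆ = ⊥ := by
  by_cases hδ1 : δ = 1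
  · exfalso
    have e := h.eA
    rw [hδ1, inv_one, conjBy_one, eq_comm, conjBy_eq_iff, inv_inv, conjBy_eq_self_of_mem h.ha] at e
    exact h.pA.ne e.symm
  obtain ⟨α, hα, -, heα⟩ := h.pA.cond_right δ⁻¹ (D.inv_mem h.hδ) (inv_ne_one.2 hδ1)
  rw [inv_inv] at heα
  have e : (δ⁻¹ * (c * a⁻¹) * δ)⁻¹ = δ⁻¹ * (c * a⁻¹)⁻¹ * δ := by group
  have eα : (c * a⁻¹)⁻¹ * α⁻¹ = α⁻¹ * (c * a⁻¹)⁻¹ := (h.commd hα).symm.inv_inv.eq
  have h1 : ⁅conjBy (conjBy A δ) (c * a⁻¹)⁻¹, conjBy A δ⁆ = ⊥ := by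
    rw [← heα, conjBy_conjBy D, eα, ← conjBy_conjBy, conj_commutator_eq_bot]
    have := h.hDd
    rwa [show a * c⁻¹ = (c * a⁻¹)⁻¹ by group] at this
  have h2 := (conj_commutator_eq_bot δ⁻¹).2 h1
  rw [conjBy_inv_conjBy, conjBy_conjBy, conjBy_conjBy] at h2
  rw [e]
  exact h2

lemma hAx' (h : Triple S A C D a c δ) : ⁅conjBy A (δ⁻¹ * (c * a⁻¹) * δ), A⁆ = ⊥ := by
  have h2 := (conj_commutator_eq_bot (δ⁻¹ * (c * a⁻¹) * δ)).2 h.hAx
  rw [conjBy_conjBy, mul_inv_cancel, conjBy_one] at h2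
  rwa [Subgroup.commutator_comm]

/-- The matched pair `a`, `δ` satisfies the special identity. -/
lemma special (h : Triple S A C D a c δ) : δ⁻¹ * a * δ = a⁻¹ * δ⁻¹ * a := by
  set b₂ := a * (δ⁻¹ * a * δ) * a⁻¹ with hb₂
  set b₃ := c * (δ⁻¹ * c * δ) * c⁻¹ with hb₃
  have hb₂m : b₂ ∈ D := by
    have h1 : δ⁻¹ * a * δ⁻¹⁻¹ ∈ conjBy D a⁻¹ := h.eA ▸ conj_mem_conjBy h.ha
    rw [mem_conjBy] at h1
    simpa [hb₂, mul_assoc] using h1
  have hb₃m : b₃ ∈ D := by
    have h1 : δ⁻¹ * c * δ⁻¹⁻¹ ∈ conjBy D c⁻¹ := h.eC ▸ conj_mem_conjBy h.hc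
    rw [mem_conjBy] at h1
    simpa [hb₃, mul_assoc] using h1
  set d := c * a⁻¹ with hd
  set x := δ⁻¹ * d * δ with hx
  -- an element centralizing `A ⊔ D`
  set z := (d⁻¹ * b₃ * d) * b₂⁻¹ * (δ⁻¹ * (d⁻¹ * δ * d)) with hz
  have hzx : z = a * x * a⁻¹ * x⁻¹ * d := by
    have hac : a * c⁻¹ = d⁻¹ := by rw [hd]; group
    simp only [hz, hb₂, hb₃, hx, hd]
    group
  have hzD : ∀ y ∈ D, Commute z y := fun y hy =>
    ((h.commD hb₃m hy).mul_left (mul_comm_of_mem h.root h.memD (D.inv_mem hb₂m) hy)).mul_left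
      ((show Commute δ⁻¹ y from mul_comm_of_mem h.root h.memD (D.inv_mem h.hδ) hy).mul_left (h.commD h.hδ hy))
  have hzA : ∀ y ∈ A, Commute z y := fun y hy => by
    have h1 : Commute (x * a⁻¹ * x⁻¹) y :=
      commutator_eq_bot_iff.1 h.hAx' _ (conj_mem_conjBy (A.inv_mem h.ha)) y hy
    have h2 : Commute a y := mul_comm_of_mem h.root h.memA h.ha hy
    rw [hzx, show a * x * a⁻¹ * x⁻¹ * d = a * (x * a⁻¹ * x⁻¹) * d by group]
    exact (h2.mul_left h1).mul_left (h.commd hy).symm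
  have hzc : z ∈ Subgroup.centralizer ((D ⊔ A : Subgroup G) : Set G) := by
    refine Subgroup.mem_centralizer_iff.2 fun g hg => ?_
    have hle : D ⊔ A ≤ Subgroup.centralizer {z} := sup_le
      (fun y hy => Subgroup.mem_centralizer_singleton_iff.2 (hzD y hy).symm)
      (fun y hy => Subgroup.mem_centralizer_singleton_iff.2 (hzA y hy).symm)
    exact Subgroup.mem_centralizer_singleton_iff.1 (hle hg)
  set u := δ * b₂ with hu
  have humem : u ∈ D := D.mul_mem h.hδ hb₂m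
  have huv : z * u = d⁻¹ * (b₃ * δ) * d := by
    have e1 : Commute (δ⁻¹ * (d⁻¹ * δ * d)) u :=
      (show Commute δ⁻¹ u from mul_comm_of_mem h.root h.memD (D.inv_mem h.hδ) humem).mul_left
        (h.commD h.hδ humem)
    calc z * u = (d⁻¹ * b₃ * d) * b₂⁻¹ * (u * (δ⁻¹ * (d⁻¹ * δ * d))) := by rw [hz, mul_assoc, e1.eq]
      _ = (d⁻¹ * b₃ * d) * (b₂⁻¹ * (δ * b₂) * δ⁻¹) * (d⁻¹ * δ * d) := by rw [hu]; group
      _ = (d⁻¹ * b₃ * d) * (d⁻¹ * δ * d) := by
          rw [mul_comm_of_mem h.root h.memD h.hδ hb₂m]; group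
      _ = _ := by group
  have hmemd : d⁻¹ * (b₃ * δ) * d ∈ conjBy D (a * c⁻¹) := by
    have := conj_mem_conjBy (g := a * c⁻¹) (D.mul_mem hb₃m h.hδ)
    convert this using 1
    rw [hd]; group
  have hu1 : u = 1 := by
    by_contra hu1
    by_cases hz1 : z = 1
    · rw [hz1, one_mul] at huv
      exact h.hDd_ne (eq_of_mem h.root h.memD (not_isolated h.memD h.memA (RankOnePair_symm h.pA))
        (h.root.conj_mem D h.memD _) humem (huv ▸ hmemd) hu1).symm
    by_cases hv : b₃ * δ = 1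
    · rw [hv, mul_one, inv_mul_cancel] at huv
      refine h.pA.ne (eq_of_commute h.pA h.ha humem h.ha1 hu1 left_mem_unipotent (right_mem_unipotent h.pA) ?_)
      have e := hzA a h.ha
      rw [eq_inv_of_mul_eq_one_left huv] at e
      exact (inv_inv u ▸ e.inv_left : Commute u a).symm.eq
    refine Cfsg.Agent.S5025.not_rootElement h.root (A := D) ⟨h.memA, RankOnePair_symm h.pA⟩ hzc hz1 u humem hu1
      ⟨?_, conjBy D (a * c⁻¹), h.root.conj_mem D h.memD _, huv ▸ hmemd⟩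
    intro e
    rw [huv] at e
    exact conj_ne_one (g := d⁻¹) hv (by rwa [inv_inv])
  have hb : b₂ = δ⁻¹ := eq_inv_of_mul_eq_one_right hu1
  calc δ⁻¹ * a * δ = a⁻¹ * b₂ * a := by rw [hb₂]; group
    _ = a⁻¹ * δ⁻¹ * a := by rw [hb]

end Triple

/-- A pair with a further member commuting with the first and rank one with the second is special. -/
lemma special_of_commuting (hS : IsRootSubgroupSet S) (hA : A ∈ S) (hC : C ∈ S) (hD : D ∈ S)
    (hAC : ⁅A, C⁆ = ⊥) (hne : A ≠ C) (hp : IsRankOnePair A D) (hq : IsRankOnePair C D) :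
    IsSpecialRankOnePair A D := by
  refine ⟨hp, fun a ha ha1 δ hδ hδ1 he => ?_⟩
  obtain ⟨c, hc, hc1, hec⟩ := hq.cond_right δ hδ hδ1
  exact Triple.special ⟨hS, hA, hC, hD, hAC, hne, hp, hq, ha, ha1, hc, hc1, hδ, he, hec.symm⟩

lemma comm_member (hS : IsRootSubgroupSet S) (hD : D ∈ S) : ∀ x ∈ D, ∀ y ∈ D, x * y = y * x :=
  fun _ hx _ hy => mul_comm_of_mem hS hD hx hy

namespace Triple

variable {a c δ : G}

lemma specialPair (h : Triple S A C D a c δ) : IsSpecialRankOnePair A D :=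
  special_of_commuting h.root h.memA h.memC h.memD h.comm h.ne h.pA h.pC

lemma δ_ne_one (h : Triple S A C D a c δ) : δ ≠ 1 := by
  intro hδ1
  have e := h.eA
  rw [hδ1, inv_one, conjBy_one, eq_comm, conjBy_eq_iff, inv_inv, conjBy_eq_self_of_mem h.ha] at e
  exact h.pA.ne e.symm

lemma invA (h : Triple S A C D a c δ) : conjBy A δ = conjBy D a :=
  invPairs_of_identity h.pA h.specialPair.2 a h.ha h.ha1 δ h.hδ h.δ_ne_one h.eA

lemma sq_δ_ne (h : Triple S A C D a c δ) (ha2 : a * a ≠ 1) : δ * δ ≠ 1 := fun e => ha2 <| by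
  have h1 : conjBy D a⁻¹ = conjBy D a := by rw [← h.eA, ← h.invA, inv_eq_of_mul_eq_one_right e]
  have h2 := conj_injective h.pA (A.inv_mem h.ha) h.ha h1
  calc a * a = a * a⁻¹ := by rw [h2]
    _ = 1 := mul_inv_cancel a

lemma sq_c_ne (h : Triple S A C D a c δ) (ha2 : a * a ≠ 1) : c * c ≠ 1 := fun e => h.sq_δ_ne ha2 <| by
  have h1 : conjBy C δ⁻¹ = conjBy C δ := by
    rw [h.eC, h.symm.invA, inv_eq_of_mul_eq_one_right e]
  have h2 := conj_injective (RankOnePair_symm h.pC) (D.inv_mem h.hδ) h.hδ h1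
  calc δ * δ = δ * δ⁻¹ := by rw [h2]
    _ = 1 := mul_inv_cancel δ

/-- `D` commutes with its conjugate by `d²`. -/
lemma hDd2 (h : Triple S A C D a c δ) (ha2 : a * a ≠ 1) : ⁅conjBy D (a * a * (c * c)⁻¹), D⁆ = ⊥ := by
  have hc2 := h.sq_c_ne ha2
  obtain ⟨η, hη, hη1, heη⟩ := h.pA.cond_left (a * a) (A.mul_mem h.ha h.ha) ha2
  obtain ⟨θ, hθ, -, heθ⟩ := h.pC.cond_left (c * c) (C.mul_mem h.hc h.hc) hc2
  have hcom := comm_member h.root h.memD
  have h1 : η * η = δ := sqrt_pair h.specialPair hcom h.ha ha2 h.hδ h.eA hη heη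
  have h2 : θ * θ = δ := sqrt_pair h.symm.specialPair hcom h.hc hc2 h.hδ h.eC hθ heθ
  have hη2 : η * η ≠ 1 := by rw [h1]; exact h.δ_ne_one
  have hDA : IsSpecialRankOnePair D A := special_of_invPairs (RankOnePair_symm h.pA)
    (invPairs_symm (invPairs_of_identity h.pA h.specialPair.2))
  rw [eq_of_sq_eq hDA (comm_member h.root h.memA) hη hθ hη2 (h1.trans h2.symm)] at heη
  exact Triple.hDd ⟨h.root, h.memA, h.memC, h.memD, h.comm, h.ne, h.pA, h.pC, A.mul_mem h.ha h.ha, ha2,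
    C.mul_mem h.hc h.hc, hc2, hθ, heη, heθ⟩

/-- The product `r = δ^{-d} δ`. -/
def r (_ : Triple S A C D a c δ) : G := (c * a⁻¹)⁻¹ * δ⁻¹ * (c * a⁻¹) * δ

lemma r_commD (h : Triple S A C D a c δ) {y : G} (hy : y ∈ D) : Commute h.r y :=
  (h.commD (D.inv_mem h.hδ) hy).mul_left (mul_comm_of_mem h.root h.memD h.hδ hy)

lemma axa (h : Triple S A C D a c δ) : a * (δ⁻¹ * (c * a⁻¹) * δ) * a⁻¹ = h.r := by
  have e1 := h.special
  have e2 := h.symm.special
  calc a * (δ⁻¹ * (c * a⁻¹) * δ) * a⁻¹ = a * ((δ⁻¹ * c * δ) * (δ⁻¹ * a * δ)⁻¹) * a⁻¹ := by group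
    _ = a * ((c⁻¹ * δ⁻¹ * c) * (a⁻¹ * δ⁻¹ * a)⁻¹) * a⁻¹ := by rw [e1, e2]
    _ = _ := by rw [Triple.r]; group

lemma r_conj_a (h : Triple S A C D a c δ) : h.r * a * h.r⁻¹ = c := by
  have e : δ⁻¹ * (c * a⁻¹) * δ = (c * a⁻¹) * h.r := by rw [Triple.r]; group
  have e1 := h.axa
  rw [e] at e1
  have e2 : h.r * a * h.r⁻¹ = a * (c * a⁻¹) := by
    calc h.r * a * h.r⁻¹ = (a * ((c * a⁻¹) * h.r) * a⁻¹) * a * h.r⁻¹ := by rw [e1]
      _ = _ := by group
  rw [e2, ← mul_assoc, (h.commAC h.ha h.hc).eq, mul_inv_cancel_right]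

lemma rr'_commA (h : Triple S A C D a c δ) {y : G} (hy : y ∈ A) : Commute (h.symm.r * h.r) y := by
  set x := δ⁻¹ * (c * a⁻¹) * δ with hx
  have h1 : Commute (x⁻¹ * a * x⁻¹⁻¹) y :=
    commutator_eq_bot_iff.1 h.hAx _ (conj_mem_conjBy h.ha) y hy
  have h2 : Commute a⁻¹ y := mul_comm_of_mem h.root h.memA (A.inv_mem h.ha) hy
  have e : h.symm.r * h.r = (c * a⁻¹) * ((x⁻¹ * a * x⁻¹⁻¹) * a⁻¹) := by
    rw [show (c * a⁻¹) * ((x⁻¹ * a * x⁻¹⁻¹) * a⁻¹) = (c * a⁻¹) * x⁻¹ * (a * x * a⁻¹) by group, hx, h.axa]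
    simp only [Triple.r]
    group
  rw [e]
  exact (h.commd hy).symm.mul_left (h1.mul_left h2)

lemma rr'_comm (h : Triple S A C D a c δ) (ha2 : a * a ≠ 1) : Commute h.r h.symm.r := by
  have e : (a * a * (c * c)⁻¹) = (c * a⁻¹)⁻¹ * (c * a⁻¹)⁻¹ := by
    have e1 : Commute a c := h.commAC h.ha h.hc
    calc a * a * (c * c)⁻¹ = a * (a * c⁻¹) * c⁻¹ := by group
      _ = a * (c⁻¹ * a) * c⁻¹ := by rw [e1.inv_right.eq]
      _ = _ := by group
  have hDd2 := h.hDd2 ha2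
  rw [e] at hDd2
  have h1 := (conj_commutator_eq_bot (c * a⁻¹)).2 hDd2
  rw [conjBy_conjBy, mul_inv_cancel_left] at h1
  have key : ∀ {x y : G}, x ∈ D → y ∈ D →
      Commute ((c * a⁻¹)⁻¹ * x * (c * a⁻¹)) ((c * a⁻¹) * y * (c * a⁻¹)⁻¹) := fun hx hy =>
    commutator_eq_bot_iff.1 h1 _ (by simpa using conj_mem_conjBy (g := (c * a⁻¹)⁻¹) hx) _ (conj_mem_conjBy hy)
  have e2 : h.symm.r = (c * a⁻¹) * δ⁻¹ * (c * a⁻¹)⁻¹ * δ := by simp only [Triple.r]; group
  rw [e2]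
  refine Commute.mul_right ?_ (h.r_commD h.hδ)
  exact (key (D.inv_mem h.hδ) (D.inv_mem h.hδ)).mul_left (h.commD' (D.inv_mem h.hδ) h.hδ).symm

/-- The key: a degenerate configuration in which everything commuting with `A` commutes with `B`. -/
lemma commute_of_bad (h : Triple S A C D a c δ) (hdeg : IsDegenerateRootSet S) (ha2 : a * a ≠ 1)
    (ha3 : a * a * a ≠ 1) (hbad : ∀ Z ∈ S, Z ≠ A → ⁅Z, A⁆ = ⊥ → ⁅Z, B⁆ = ⊥) {b : G} (hb : b ∈ B) :
    Commute b a := by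
  set r := h.r with hr
  set d := c * a⁻¹ with hd
  set ζ := h.symm.r * r with hζ
  have hrr := h.rr'_comm ha2
  have hζA : ∀ y ∈ A, Commute ζ y := fun y hy => h.rr'_commA hy
  have hζC : ∀ y ∈ C, Commute ζ y := fun y hy => by
    rw [hζ, ← hrr.eq]; exact h.symm.rr'_commA hy
  have hζD : ∀ y ∈ D, Commute ζ y := fun y hy => (h.symm.r_commD hy).mul_left (h.r_commD hy)
  have hζd : Commute ζ d := (hζC c h.hc).mul_right (hζA a h.ha).inv_right
  have hζr : Commute ζ r := (((hζd.inv_right.mul_right (hζD _ (D.inv_mem h.hδ))).mul_right hζd).mul_right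
    (hζD δ h.hδ))
  have had : Commute a d := h.commd h.ha
  have hca : c = d * a := (inv_mul_cancel_right c a).symm
  have hrd : r * d * r⁻¹ = ζ * d := by
    have e1 : h.symm.r = d * r⁻¹ * d⁻¹ := by
      rw [hr, hd]; simp only [Triple.r]; group
    rw [hζ, ← hrr.eq, e1, hr]; group
  have hrζ : r * ζ * r⁻¹ = ζ := conj_eq_self hζr.symm.eq
  have hra : r * a * r⁻¹ = d * a := h.r_conj_a.trans hca
  set f₂ := ζ * d * (d * a) with hf₂
  have hrf : r * (r * a * r⁻¹) * r⁻¹ = f₂ := by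
    rw [hra, show r * (d * a) * r⁻¹ = (r * d * r⁻¹) * (r * a * r⁻¹) by group, hrd, hra]
  set f₃ := ζ * (ζ * d) * (ζ * d * (d * a)) with hf₃
  have hrf₃ : r * f₂ * r⁻¹ = f₃ := by
    rw [hf₂, show r * (ζ * d * (d * a)) * r⁻¹ =
      (r * ζ * r⁻¹) * (r * d * r⁻¹) * ((r * d * r⁻¹) * (r * a * r⁻¹)) by group, hrζ, hrd, hra]
  -- the member containing a conjugate of `a` by a power of `r`
  have key : ∀ g : G, (∀ y ∈ D, Commute g y) → ∀ k : G, (∀ y ∈ A, Commute k y) → g * a * g⁻¹ = k * a →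
      (k = 1 → False) → Commute b (k * a) := by
    intro g hgD k hkA hga hk
    have hZ : conjBy A g ∈ S := h.root.conj_mem A h.memA g
    have hmem : k * a ∈ conjBy A g := hga ▸ conj_mem_conjBy h.ha
    have hne1 : k * a ≠ 1 := fun e => h.ha1 (conj_eq_one_iff.1 (hga.trans e))
    have hne : conjBy A g ≠ A := by
      intro e
      apply hk
      have hgDfix : conjBy D g = D := conjBy_eq_self_iff.2 <| Subgroup.centralizer_le_normalizer
        (s := (D : Set G)) (Subgroup.mem_centralizer_iff.2 fun y hy => (hgD y hy).symm.eq)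
      have h1 : g * a * g⁻¹ ∈ A := by
        have := conj_mem_conjBy (g := g) h.ha
        rwa [e] at this
      have h2 := congrArg (fun Z => conjBy Z g) h.eA
      simp only [conjBy_conjBy] at h2
      rw [show g * δ⁻¹ = δ⁻¹ * g from (hgD _ (D.inv_mem h.hδ)).eq, ← conjBy_conjBy A, e, h.eA,
        show g * a⁻¹ = (g * a⁻¹ * g⁻¹) * g by group, ← conjBy_conjBy D g, hgDfix,
        show g * a⁻¹ * g⁻¹ = (g * a * g⁻¹)⁻¹ by group] at h2
      have h3 := conj_injective h.pA (A.inv_mem h.ha) (A.inv_mem h1) h2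
      rw [inv_inj, hga] at h3
      exact mul_eq_right.1 h3.symm
    have hcom : ⁅conjBy A g, A⁆ = ⊥ := by
      rcases h.root.pair _ hZ A h.memA with hc | hp | hcase
      · exact hc
      · refine absurd (eq_of_commute hp hmem h.ha hne1 h.ha1 left_mem_unipotent (right_mem_unipotent hp) ?_) hne
        exact ((hkA a h.ha).mul_left (Commute.refl a)).eq
      · exact absurd hcase (hdeg _ hZ A h.memA)
    exact (commutator_eq_bot_iff.1 (hbad _ hZ hne hcom) _ hmem b hb).symm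
  have hfix : ∀ n : ℕ, a ^ n ≠ 1 → ∀ z : G, (∀ y ∈ D, Commute z y) → z * d ^ n = 1 → False := by
    intro n hn z hz e
    have h1 : conjBy D (d ^ n) = D := by
      rw [show d ^ n = z⁻¹ from eq_inv_of_mul_eq_one_right e]
      exact conjBy_eq_self_iff.2 (inv_mem (Subgroup.centralizer_le_normalizer (s := (D : Set G))
        (Subgroup.mem_centralizer_iff.2 fun y hy => (hz y hy).symm.eq)))
    rw [hd, (h.commAC h.ha h.hc).symm.inv_right.mul_pow, inv_pow,
      (((h.commAC h.ha h.hc).symm.pow_pow n n).inv_right).eq] at h1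
    have h2 := congrArg (fun Z => conjBy Z (a ^ n)) h1
    simp only [conjBy_conjBy, mul_inv_cancel_left] at h2
    exact conjBy_ne_of_commute h.root h.memA h.comm h.ne h.pA h.pC (A.pow_mem h.ha n) hn (C.pow_mem h.hc n) h2.symm
  have hdA : ∀ y ∈ A, Commute d y := fun y hy => (h.commd hy).symm
  have hrD : ∀ y ∈ D, Commute r y := fun y hy => h.r_commD hy
  have b1 : Commute b (d * a) := key r hrD d hdA hra fun e =>
    hfix 1 (by rw [pow_one]; exact h.ha1) 1 (fun y _ => Commute.one_left y) (by rw [one_mul, pow_one]; exact e)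
  have b2 : Commute b ((ζ * d * d) * a) := by
    refine key (r * r) (fun y hy => (hrD y hy).mul_left (hrD y hy)) _
      (fun y hy => ((hζA y hy).mul_left (hdA y hy)).mul_left (hdA y hy)) ?_ fun e => hfix 2 (by rwa [pow_two]) ζ
        hζD (by rw [pow_two, ← mul_assoc]; exact e)
    rw [mul_assoc (ζ * d) d a, ← hf₂, ← hrf]; group
  have b3 : Commute b ((ζ * (ζ * d) * (ζ * d * d)) * a) := by
    refine key (r * r * r) (fun y hy => ((hrD y hy).mul_left (hrD y hy)).mul_left (hrD y hy)) _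
      (fun y hy => (((hζA y hy).mul_left ((hζA y hy).mul_left (hdA y hy)))).mul_left
        (((hζA y hy).mul_left (hdA y hy)).mul_left (hdA y hy))) ?_ fun e => hfix 3
        (by rw [pow_succ, pow_two]; exact ha3) (ζ * ζ * ζ)
        (fun y hy => ((hζD y hy).mul_left (hζD y hy)).mul_left (hζD y hy)) ?_
    · calc r * r * r * a * (r * r * r)⁻¹ = r * (r * (r * a * r⁻¹) * r⁻¹) * r⁻¹ := by group
        _ = f₃ := by rw [hrf, hrf₃]
        _ = _ := by rw [hf₃]; group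
    · rw [← e, pow_succ, pow_two]
      calc ζ * ζ * ζ * (d * d * d) = ζ * ζ * (ζ * d) * d * d := by group
        _ = ζ * ζ * (d * ζ) * d * d := by rw [hζd.eq]
        _ = _ := by group
  have e : (ζ * (ζ * d) * (ζ * d * d) * a) * (d * a) ^ 3 = (ζ * d * d * a) ^ 3 * a := by
    have c1 : Commute ζ a := hζA a h.ha
    rw [((hdA a h.ha)).mul_pow, ((c1.mul_left (hdA a h.ha)).mul_left (hdA a h.ha)).mul_pow,
      ((hζd.mul_left (Commute.refl d))).mul_pow, hζd.mul_pow]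
    simp only [pow_succ, pow_zero, one_mul, ← mul_assoc]
    simp only [mul_assoc, hζd.symm.eq, hζd.symm.left_comm, had.eq, had.left_comm, c1.symm.eq, c1.symm.left_comm]
  have e' : a = ((ζ * d * d * a) ^ 3)⁻¹ * ((ζ * (ζ * d) * (ζ * d * d) * a) * (d * a) ^ 3) := by
    rw [e, inv_mul_cancel_left]
  rw [e']
  exact ((b2.pow_right 3).inv_right).mul_right (b3.mul_right (b1.pow_right 3))

end Triple

end CfsgLib.RootGroups
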