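import Mathlib

/-!
Homomorphisms from `SL₂` of a finite field, from two root subgroups satisfying the braid relations.
-/

set_option autoImplicit false

namespace CfsgLib.SteinbergSL2

/-- Two parametrised subgroups with the relations of `SL₂`. -/
structure Rel (F : Type*) [Field F] (Y : Type*) [Group Y] where
  u : F → Y
  l : F → Y
  u_add : ∀ x y, u (x + y) = u x * u y
  l_add : ∀ x y, l (x + y) = l x * l y
  braid : ∀ t : F, t ≠ 0 → u t * l (-t⁻¹) * u t = l (-t⁻¹) * u t * l (-t⁻¹)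
  conjW : ∀ (t : F), t ≠ 0 → ∀ x, (u t * l (-t⁻¹) * u t) * u x = l (-(x / t ^ 2)) * (u t * l (-t⁻¹) * u t)

namespace Rel

variable {F : Type*} [Field F] {Y : Type*} [Group Y] (R : Rel F Y)

lemma u_zero : R.u 0 = 1 := by
  have h := R.u_add 0 0
  rw [add_zero] at h
  exact left_eq_mul.1 h

lemma l_zero : R.l 0 = 1 := by
  have h := R.l_add 0 0
  rw [add_zero] at h
  exact left_eq_mul.1 h

lemma u_neg (x : F) : R.u (-x) = (R.u x)⁻¹ :=
  eq_inv_of_mul_eq_one_left (by rw [← R.u_add, neg_add_cancel, R.u_zero])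

lemma l_neg (x : F) : R.l (-x) = (R.l x)⁻¹ :=
  eq_inv_of_mul_eq_one_left (by rw [← R.l_add, neg_add_cancel, R.l_zero])

/-- The Weyl element. -/
def W (t : F) : Y := R.u t * R.l (-t⁻¹) * R.u t

/-- The torus element. -/
def h (t : F) : Y := R.W t * (R.W 1)⁻¹

lemma W_neg (t : F) : R.W (-t) = (R.W t)⁻¹ := by
  simp only [W, inv_neg, neg_neg, R.u_neg]
  rw [R.l_neg, mul_inv_rev, mul_inv_rev, inv_inv, mul_assoc]

lemma W_u {t : F} (ht : t ≠ 0) (x : F) : R.W t * R.u x = R.l (-(x / t ^ 2)) * R.W t := R.conjW t ht x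

lemma W_l {t : F} (ht : t ≠ 0) (y : F) : R.W t * R.l y = R.u (-(t ^ 2 * y)) * R.W t := by
  have h1 := R.W_u (neg_ne_zero.2 ht) (-(t ^ 2 * y))
  rw [show -(-(t ^ 2 * y) / (-t) ^ 2) = y by field_simp, R.W_neg] at h1
  calc R.W t * R.l y = R.W t * (R.l y * (R.W t)⁻¹) * R.W t := by group
    _ = R.W t * ((R.W t)⁻¹ * R.u (-(t ^ 2 * y))) * R.W t := by rw [h1]
    _ = _ := by group

lemma W_braid {t : F} (ht : t ≠ 0) : R.W t = R.l (-t⁻¹) * R.u t * R.l (-t⁻¹) := R.braid t ht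

lemma W_eq (t : F) : R.W t = R.h t * R.W 1 := by rw [h, inv_mul_cancel_right]

lemma W_one_W {t : F} (ht : t ≠ 0) : R.W 1 * R.W t = R.W t⁻¹ * R.W 1 := by
  have e1 := R.W_u (one_ne_zero : (1 : F) ≠ 0)
  have e2 := R.W_l (one_ne_zero : (1 : F) ≠ 0)
  rw [R.W_braid (inv_ne_zero ht), inv_inv]
  calc R.W 1 * R.W t = (R.W 1 * R.u t) * R.l (-t⁻¹) * R.u t := by
          rw [show R.W t = R.u t * R.l (-t⁻¹) * R.u t from rfl]; group
    _ = R.l (-t) * (R.W 1 * R.l (-t⁻¹)) * R.u t := by rw [e1, one_pow, div_one]; group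
    _ = R.l (-t) * R.u t⁻¹ * (R.W 1 * R.u t) := by rw [e2, one_pow, one_mul, neg_neg]; group
    _ = _ := by rw [e1, one_pow, div_one]; group

lemma h_u {t : F} (ht : t ≠ 0) (x : F) : R.h t * R.u x = R.u (t ^ 2 * x) * R.h t := by
  have e1 := R.W_u (neg_ne_zero.2 (one_ne_zero : (1 : F) ≠ 0)) x
  rw [R.W_neg, neg_one_sq, div_one] at e1
  rw [h, mul_assoc, e1, ← mul_assoc, R.W_l ht, mul_neg, neg_neg, mul_assoc]

lemma h_l {t : F} (ht : t ≠ 0) (y : F) : R.h t * R.l y = R.l (y / t ^ 2) * R.h t := by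
  have e1 := R.W_l (neg_ne_zero.2 (one_ne_zero : (1 : F) ≠ 0)) y
  rw [R.W_neg, neg_one_sq, one_mul] at e1
  rw [h, mul_assoc, e1, ← mul_assoc, R.W_u ht, neg_div, neg_neg, mul_assoc]

lemma h_one : R.h 1 = 1 := mul_inv_cancel _

lemma W_one_h {t : F} (ht : t ≠ 0) : R.W 1 * R.h t = R.h t⁻¹ * R.W 1 := by
  rw [← R.W_eq, h, ← mul_assoc, R.W_one_W ht, mul_inv_cancel_right]

lemma WW_h {t : F} (ht : t ≠ 0) : R.W 1 * R.W 1 * R.h t = R.h t * (R.W 1 * R.W 1) := by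
  rw [mul_assoc, R.W_one_h ht, ← mul_assoc, R.W_one_h (inv_ne_zero ht), inv_inv, mul_assoc]

lemma h_inv' {t : F} (ht : t ≠ 0) : (R.h t)⁻¹ = R.h (-t⁻¹) * (R.W 1 * R.W 1) := by
  rw [h, mul_inv_rev, inv_inv, ← R.W_neg, R.W_one_W (neg_ne_zero.2 ht), inv_neg, R.W_eq, mul_assoc]

lemma h_W {s : F} (hs : s ≠ 0) (t : F) : R.h s * R.W t = R.W (s ^ 2 * t) * R.h s := by
  simp only [W]
  rw [← mul_assoc, ← mul_assoc, R.h_u hs, mul_assoc (R.u (s ^ 2 * t)) (R.h s), R.h_l hs, mul_assoc,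
    mul_assoc (R.l _) (R.h s), R.h_u hs, show -t⁻¹ / s ^ 2 = -(s ^ 2 * t)⁻¹ by
      rw [mul_inv, div_eq_mul_inv]; ring]
  simp only [mul_assoc]

lemma commute_h {z : Y} (hu : ∀ x, Commute z (R.u x)) (hl : ∀ x, Commute z (R.l x)) (t : F) : Commute z (R.h t) :=
  (((hu t).mul_right (hl _)).mul_right (hu t)).mul_right
    (((hu 1).mul_right (hl _)).mul_right (hu 1)).inv_right

variable [Fintype F]

lemma h_comm {s t : F} (hs : s ≠ 0) (ht : t ≠ 0) : Commute (R.h s) (R.h t) := by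
  obtain ⟨τ, hτ⟩ := IsCyclic.exists_monoid_generator (α := Fˣ)
  have key : ∀ r : F, r ≠ 0 → ∃ k : ℕ, ∃ z : Y, (∀ x, Commute z (R.u x)) ∧ (∀ x, Commute z (R.l x)) ∧
      R.h r = z * R.h (τ : F) ^ k := by
    intro r hr
    obtain ⟨k, hk⟩ := (Submonoid.mem_powers_iff _ _).1 (hτ (Units.mk0 r hr))
    have hk' : (τ : F) ^ k = r := by rw [← Units.val_pow_eq_pow_val, hk, Units.val_mk0]
    have hp : ∀ (j : ℕ) (x : F), R.h (τ : F) ^ j * R.u x = R.u (((τ : F) ^ j) ^ 2 * x) * R.h (τ : F) ^ j ∧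
        R.h (τ : F) ^ j * R.l x = R.l (x / ((τ : F) ^ j) ^ 2) * R.h (τ : F) ^ j := by
      intro j
      induction j with
      | zero => intro x; simp
      | succ j ih =>
        intro x
        constructor
        · calc R.h (τ : F) ^ (j + 1) * R.u x = R.h (τ : F) ^ j * (R.h (τ : F) * R.u x) := by
                rw [pow_succ, mul_assoc]
            _ = R.h (τ : F) ^ j * R.u ((τ : F) ^ 2 * x) * R.h (τ : F) := by rw [R.h_u τ.ne_zero, mul_assoc]
            _ = _ := by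
                rw [(ih _).1, mul_assoc, ← pow_succ]
                congr 2
                ring
        · calc R.h (τ : F) ^ (j + 1) * R.l x = R.h (τ : F) ^ j * (R.h (τ : F) * R.l x) := by
                rw [pow_succ, mul_assoc]
            _ = R.h (τ : F) ^ j * R.l (x / (τ : F) ^ 2) * R.h (τ : F) := by rw [R.h_l τ.ne_zero, mul_assoc]
            _ = _ := by
                rw [(ih _).2, mul_assoc, ← pow_succ]
                congr 2
                field_simp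
                ring
    refine ⟨k, R.h r * (R.h (τ : F) ^ k)⁻¹, fun x => ?_, fun x => ?_, (inv_mul_cancel_right _ _).symm⟩
    · show _ = _
      have h1 := (hp k (x / r ^ 2)).1
      rw [hk', mul_div_cancel₀ _ (pow_ne_zero 2 hr)] at h1
      calc R.h r * (R.h (τ : F) ^ k)⁻¹ * R.u x
          = R.h r * (R.h (τ : F) ^ k)⁻¹ * (R.h (τ : F) ^ k * R.u (x / r ^ 2)) * (R.h (τ : F) ^ k)⁻¹ := by
            rw [h1]; group
        _ = R.h r * R.u (x / r ^ 2) * (R.h (τ : F) ^ k)⁻¹ := by group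
        _ = _ := by rw [R.h_u hr, mul_div_cancel₀ _ (pow_ne_zero 2 hr), mul_assoc]
    · show _ = _
      have h1 := (hp k (r ^ 2 * x)).2
      rw [hk', mul_div_cancel_left₀ _ (pow_ne_zero 2 hr)] at h1
      calc R.h r * (R.h (τ : F) ^ k)⁻¹ * R.l x
          = R.h r * (R.h (τ : F) ^ k)⁻¹ * (R.h (τ : F) ^ k * R.l (r ^ 2 * x)) * (R.h (τ : F) ^ k)⁻¹ := by
            rw [h1]; group
        _ = R.h r * R.l (r ^ 2 * x) * (R.h (τ : F) ^ k)⁻¹ := by group
        _ = _ := by rw [R.h_l hr, mul_div_cancel_left₀ _ (pow_ne_zero 2 hr), mul_assoc]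
  obtain ⟨i, z, hzu, hzl, hzi⟩ := key s hs
  obtain ⟨j, w, hwu, hwl, hwj⟩ := key t ht
  have hz : Commute z (R.h t) := R.commute_h hzu hzl t
  have hw : Commute w (R.h (τ : F) ^ i) := (R.commute_h hwu hwl _).pow_right i
  rw [hzi]
  refine hz.mul_left ?_
  rw [hwj]
  exact hw.symm.mul_right ((Commute.refl _).pow_pow i j)

lemma h_sq_mul {s t : F} (hs : s ≠ 0) (ht : t ≠ 0) : R.h (s ^ 2 * t) = R.h (s ^ 2) * R.h t := by
  have hW1 : ∀ r : F, R.W r = R.h r * R.W 1 := R.W_eq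
  have e1 : R.h s * R.h t * (R.h s)⁻¹ = R.h (s ^ 2 * t) * (R.h (s ^ 2))⁻¹ := by
    calc R.h s * R.h t * (R.h s)⁻¹ = (R.h s * R.W t) * (R.h s * R.W 1)⁻¹ := by rw [h.eq_def R t]; group
      _ = R.W (s ^ 2 * t) * R.h s * (R.W (s ^ 2 * 1) * R.h s)⁻¹ := by rw [R.h_W hs, R.h_W hs]
      _ = (R.h (s ^ 2 * t) * R.W 1) * (R.h (s ^ 2) * R.W 1)⁻¹ := by rw [mul_one, ← hW1, ← hW1]; group
      _ = _ := by group
  rw [(R.h_comm hs ht).eq, mul_inv_cancel_right] at e1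
  rw [(R.h_comm (pow_ne_zero 2 hs) ht).eq, e1, inv_mul_cancel_right]

lemma h_mul_of_add {s t : F} (hs : s ≠ 0) (ht : t ≠ 0) (hst : s + t = 1) :
    R.h s * R.h t = R.h (s * t) := by
  have hst0 : s * t ≠ 0 := mul_ne_zero hs ht
  have hneg : -(s * t) ≠ 0 := neg_ne_zero.2 hst0
  have e0 : R.W 1 = R.W s * R.W (-(s * t)) * R.W t := by
    have eu : ∀ x : F, x ≠ 0 → R.u x = R.l x⁻¹ * R.W x * R.l x⁻¹ := fun x hx => by
      rw [R.W_braid hx, R.l_neg]; group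
    have el : R.l (s⁻¹ + t⁻¹) = R.u (s * t) * R.W (-(s * t)) * R.u (s * t) := by
      rw [W, R.u_neg, inv_neg, neg_neg, show s⁻¹ + t⁻¹ = (s * t)⁻¹ by field_simp; linear_combination hst]
      group
    have e1 : R.u 1 = R.u s * R.u t := by rw [← R.u_add, hst]
    have h1 : R.W s * R.u (s * t) = R.l (-(t / s)) * R.W s := by
      rw [R.W_u hs, show s * t / s ^ 2 = t / s by field_simp]
    have h2 : R.u (s * t) * R.W t = R.W t * R.l (-(s / t)) := by
      have := R.W_l ht (-(s / t))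
      rw [show -(t ^ 2 * -(s / t)) = s * t by field_simp] at this
      exact this.symm
    have h3 : R.l s⁻¹ * R.l (-(t / s)) = R.l 1 := by
      rw [← R.l_add, show s⁻¹ + -(t / s) = 1 by field_simp; linear_combination -hst]
    have h4 : R.l (-(s / t)) * R.l t⁻¹ = R.l 1 := by
      rw [← R.l_add, show -(s / t) + t⁻¹ = 1 by field_simp; linear_combination -hst]
    have e2 : R.l 1 * R.W 1 * R.l 1 = R.l 1 * (R.W s * R.W (-(s * t)) * R.W t) * R.l 1 := by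
      calc R.l 1 * R.W 1 * R.l 1 = R.u s * R.u t := by rw [← e1, eu 1 one_ne_zero, inv_one]
        _ = R.l s⁻¹ * R.W s * (R.l s⁻¹ * R.l t⁻¹) * R.W t * R.l t⁻¹ := by rw [eu s hs, eu t ht]; group
        _ = R.l s⁻¹ * (R.W s * R.u (s * t)) * R.W (-(s * t)) * (R.u (s * t) * R.W t) * R.l t⁻¹ := by
            rw [← R.l_add, el]; group
        _ = (R.l s⁻¹ * R.l (-(t / s))) * R.W s * R.W (-(s * t)) * R.W t * (R.l (-(s / t)) * R.l t⁻¹) := by
            rw [h1, h2]; group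
        _ = _ := by rw [h3, h4]; group
    exact mul_left_cancel (mul_right_cancel e2)
  have e3 : R.h s * R.h t * (R.h (-(s * t)⁻¹) * (R.W 1 * R.W 1)) = 1 := by
    have e4 : R.W 1 = R.h s * (R.W 1 * R.h (-(s * t))) * (R.W 1 * R.h t) * R.W 1 := by
      conv_lhs => rw [e0, R.W_eq s, R.W_eq (-(s * t)), R.W_eq t]
      group
    rw [R.W_one_h hneg, inv_neg] at e4
    have e5 : R.h s * R.h (-(s * t)⁻¹) * (R.W 1 * R.W 1) * R.h t = 1 := by
      refine mul_right_cancel (b := R.W 1) ?_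
      rw [one_mul]
      conv_rhs => rw [e4]
      group
    rw [mul_assoc (R.h s * R.h (-(s * t)⁻¹)), R.WW_h ht, ← mul_assoc, mul_assoc (R.h s),
      (R.h_comm (neg_ne_zero.2 (inv_ne_zero hst0)) ht).eq] at e5
    simpa only [mul_assoc] using e5
  rw [← R.h_inv' hst0] at e3
  exact mul_inv_eq_one.1 e3

lemma h_sq {a : F} (ha : a ≠ 0) {t : F} (ht : t ≠ 0) : R.h (a ^ 2 * t) = R.h (a ^ 2) * R.h t := R.h_sq_mul ha ht

omit R in
lemma isSquare_div {s t : F} (hs : s ≠ 0) (ht : t ≠ 0) (h1 : ¬ IsSquare s) (h2 : ¬ IsSquare t) :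
    IsSquare (s / t) := by
  obtain ⟨τ, hτ⟩ := IsCyclic.exists_monoid_generator (α := Fˣ)
  obtain ⟨i, hi⟩ := (Submonoid.mem_powers_iff _ _).1 (hτ (Units.mk0 s hs))
  obtain ⟨j, hj⟩ := (Submonoid.mem_powers_iff _ _).1 (hτ (Units.mk0 t ht))
  have hs' : (τ : F) ^ i = s := by rw [← Units.val_pow_eq_pow_val, hi, Units.val_mk0]
  have ht' : (τ : F) ^ j = t := by rw [← Units.val_pow_eq_pow_val, hj, Units.val_mk0]
  rcases Nat.even_or_odd i with ⟨i', rfl⟩ | ⟨i', rfl⟩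
  · exact absurd ⟨(τ : F) ^ i', by rw [← hs', pow_add]⟩ h1
  rcases Nat.even_or_odd j with ⟨j', rfl⟩ | ⟨j', rfl⟩
  · exact absurd ⟨(τ : F) ^ j', by rw [← ht', pow_add]⟩ h2
  refine ⟨(τ : F) ^ i' / (τ : F) ^ j', ?_⟩
  have := τ.ne_zero
  rw [← hs', ← ht', pow_succ (τ : F) (2 * i'), pow_succ (τ : F) (2 * j'), pow_mul', pow_mul']
  field_simp

omit R in
lemma exists_nonsquare_pair {n : F} (hn : ¬ IsSquare n) : ∃ s : F, ¬ IsSquare s ∧ ¬ IsSquare (1 - s) := by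
  classical
  by_contra hcon
  push Not at hcon
  set N := Finset.univ.filter fun x : F => ¬ IsSquare x with hN
  set Q := Finset.univ.filter fun x : F => IsSquare x ∧ x ≠ 0 with hQ
  have h1 : (N.image fun x => 1 - x) ⊆ Q.erase 1 := by
    intro y hy
    obtain ⟨x, hx, rfl⟩ := Finset.mem_image.1 hy
    have hx' : ¬ IsSquare x := (Finset.mem_filter.1 hx).2
    refine Finset.mem_erase.2 ⟨fun e => hx' ⟨0, by linear_combination -e⟩,
      Finset.mem_filter.2 ⟨Finset.mem_univ _, hcon x hx', fun e => hx' ⟨1, by linear_combination -e⟩⟩⟩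
  have hn0 : n ≠ 0 := fun e => hn ⟨0, by rw [e, mul_zero]⟩
  have h2 : (Q.image fun x => n * x) ⊆ N := by
    intro y hy
    obtain ⟨x, hx, rfl⟩ := Finset.mem_image.1 hy
    obtain ⟨-, ⟨r, hr⟩, hx0⟩ := Finset.mem_filter.1 hx
    refine Finset.mem_filter.2 ⟨Finset.mem_univ _, fun ⟨w, hw⟩ => hn ⟨w / r, ?_⟩⟩
    have hr0 : r ≠ 0 := fun e => hx0 (by rw [hr, e, mul_zero])
    field_simp
    rw [hr] at hw
    linear_combination hw
  have c1 := Finset.card_le_card h1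
  have c2 := Finset.card_le_card h2
  rw [Finset.card_image_of_injective _ fun _ _ e => sub_right_injective e] at c1
  rw [Finset.card_image_of_injective _ (mul_right_injective₀ hn0)] at c2
  have h1Q : (1 : F) ∈ Q := Finset.mem_filter.2 ⟨Finset.mem_univ _, ⟨1, (mul_one 1).symm⟩, one_ne_zero⟩
  rw [Finset.card_erase_of_mem h1Q] at c1
  have : 0 < Q.card := Finset.card_pos.2 ⟨1, h1Q⟩
  omega

lemma h_mul {s t : F} (hs : s ≠ 0) (ht : t ≠ 0) : R.h (s * t) = R.h s * R.h t := by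
  by_cases h1 : IsSquare s
  · obtain ⟨a, rfl⟩ := h1
    have ha : a ≠ 0 := left_ne_zero_of_mul hs
    rw [← pow_two, R.h_sq ha ht]
  by_cases h2 : IsSquare t
  · obtain ⟨a, rfl⟩ := h2
    have ha : a ≠ 0 := left_ne_zero_of_mul ht
    rw [← pow_two, mul_comm, R.h_sq ha hs, (R.h_comm (pow_ne_zero 2 ha) hs).eq]
  obtain ⟨s₀, hs₀, ht₀⟩ := exists_nonsquare_pair h1
  have hs₀0 : s₀ ≠ 0 := fun e => hs₀ ⟨0, by rw [e, mul_zero]⟩
  have ht₀0 : 1 - s₀ ≠ 0 := fun e => ht₀ ⟨0, by rw [e, mul_zero]⟩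
  obtain ⟨a, ha⟩ := isSquare_div hs hs₀0 h1 hs₀
  obtain ⟨b, hb⟩ := isSquare_div ht ht₀0 h2 ht₀
  have es : s = a ^ 2 * s₀ := by rw [pow_two, ← ha, div_mul_cancel₀ _ hs₀0]
  have et : t = b ^ 2 * (1 - s₀) := by rw [pow_two, ← hb, div_mul_cancel₀ _ ht₀0]
  have ha0 : a ≠ 0 := fun e => hs (by rw [es, e]; ring)
  have hb0 : b ≠ 0 := fun e => ht (by rw [et, e]; ring)
  rw [es, et, show a ^ 2 * s₀ * (b ^ 2 * (1 - s₀)) = (a * b) ^ 2 * (s₀ * (1 - s₀)) by ring,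
    R.h_sq (mul_ne_zero ha0 hb0) (mul_ne_zero hs₀0 ht₀0), R.h_sq ha0 hs₀0, R.h_sq hb0 ht₀0, mul_pow,
    R.h_sq ha0 (pow_ne_zero 2 hb0), ← R.h_mul_of_add hs₀0 ht₀0 (add_sub_cancel s₀ 1)]
  calc R.h (a ^ 2) * R.h (b ^ 2) * (R.h s₀ * R.h (1 - s₀))
      = R.h (a ^ 2) * (R.h (b ^ 2) * R.h s₀) * R.h (1 - s₀) := by group
    _ = R.h (a ^ 2) * (R.h s₀ * R.h (b ^ 2)) * R.h (1 - s₀) := by
        rw [(R.h_comm (pow_ne_zero 2 hb0) hs₀0).eq]
    _ = _ := by group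

lemma h_inv {c : F} (hc : c ≠ 0) : R.h c⁻¹ = (R.h c)⁻¹ :=
  eq_inv_of_mul_eq_one_left (by rw [← R.h_mul (inv_ne_zero hc) hc, inv_mul_cancel₀ hc, R.h_one])

lemma WW_eq : R.W 1 * R.W 1 = R.h (-1) := by
  have h1 := R.h_inv' (one_ne_zero : (1 : F) ≠ 0)
  rw [R.h_one, inv_one, inv_one] at h1
  rw [← inv_eq_of_mul_eq_one_right h1.symm, ← R.h_inv (neg_ne_zero.2 one_ne_zero), inv_neg, inv_one]

/-- The candidate homomorphism. -/
noncomputable def f (g : Matrix.SpecialLinearGroup (Fin 2) F) : Y :=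
  haveI := Classical.decEq F
  if g.1 1 0 = 0 then R.h (g.1 0 0) * R.u (g.1 0 1 / g.1 0 0)
  else R.u (g.1 0 0 / g.1 1 0) * R.W (-(g.1 1 0)⁻¹) * R.u (g.1 1 1 / g.1 1 0)

lemma f_zero {g : Matrix.SpecialLinearGroup (Fin 2) F} (hc : g.1 1 0 = 0) :
    R.f g = R.h (g.1 0 0) * R.u (g.1 0 1 / g.1 0 0) := if_pos hc

lemma f_ne {g : Matrix.SpecialLinearGroup (Fin 2) F} (hc : g.1 1 0 ≠ 0) :
    R.f g = R.u (g.1 0 0 / g.1 1 0) * R.W (-(g.1 1 0)⁻¹) * R.u (g.1 1 1 / g.1 1 0) := if_neg hc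

end Rel

/-- The upper elementary matrix. -/
def U {F : Type*} [Field F] (x : F) : Matrix.SpecialLinearGroup (Fin 2) F :=
  ⟨!![1, x; 0, 1], by simp [Matrix.det_fin_two]⟩

/-- The Weyl matrix. -/
def J (F : Type*) [Field F] : Matrix.SpecialLinearGroup (Fin 2) F :=
  ⟨!![0, 1; -1, 0], by simp [Matrix.det_fin_two]⟩

variable {F : Type*} [Field F]

lemma mul_U_val (g : Matrix.SpecialLinearGroup (Fin 2) F) (x : F) :
    (g * U x).1 0 0 = g.1 0 0 ∧ (g * U x).1 0 1 = g.1 0 0 * x + g.1 0 1 ∧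
      (g * U x).1 1 0 = g.1 1 0 ∧ (g * U x).1 1 1 = g.1 1 0 * x + g.1 1 1 := by
  have e : (g * U x).1 = g.1 * !![1, x; 0, 1] := rfl
  refine ⟨?_, ?_, ?_, ?_⟩ <;> simp [e, Matrix.mul_apply, Fin.sum_univ_two]

lemma mul_J_val (g : Matrix.SpecialLinearGroup (Fin 2) F) :
    (g * J F).1 0 0 = -g.1 0 1 ∧ (g * J F).1 0 1 = g.1 0 0 ∧
      (g * J F).1 1 0 = -g.1 1 1 ∧ (g * J F).1 1 1 = g.1 1 0 := by
  have e : (g * J F).1 = g.1 * !![0, 1; -1, 0] := rfl
  refine ⟨?_, ?_, ?_, ?_⟩ <;> simp [e, Matrix.mul_apply, Fin.sum_univ_two]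

lemma det_eq (g : Matrix.SpecialLinearGroup (Fin 2) F) : g.1 0 0 * g.1 1 1 - g.1 0 1 * g.1 1 0 = 1 := by
  rw [← Matrix.det_fin_two]; exact g.2

variable [Fintype F] {Y : Type*} [Group Y] (R : Rel F Y)

lemma f_mul_U (g : Matrix.SpecialLinearGroup (Fin 2) F) (x : F) : R.f (g * U x) = R.f g * R.u x := by
  obtain ⟨e1, e2, e3, e4⟩ := mul_U_val g x
  by_cases hc : g.1 1 0 = 0
  · have ha : g.1 0 0 ≠ 0 := fun e => by
      have := det_eq g
      rw [e, hc] at this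
      simp at this
    rw [R.f_zero (by rw [e3]; exact hc), R.f_zero hc, e1, e2, mul_assoc _ (R.u _) (R.u x), ← R.u_add]
    congr 2
    field_simp
    ring
  · rw [R.f_ne (by rw [e3]; exact hc), R.f_ne hc, e1, e3, e4, mul_assoc _ (R.u _) (R.u x), ← R.u_add]
    congr 2
    field_simp
    ring

lemma f_mul_J (g : Matrix.SpecialLinearGroup (Fin 2) F) : R.f (g * J F) = R.f g * R.W 1 := by
  obtain ⟨e1, e2, e3, e4⟩ := mul_J_val g
  have hdet := det_eq g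
  by_cases hc : g.1 1 0 = 0
  · rw [hc, mul_zero, sub_zero] at hdet
    have ha : g.1 0 0 ≠ 0 := left_ne_zero_of_mul_eq_one hdet
    have hd : g.1 1 1 = (g.1 0 0)⁻¹ := eq_inv_of_mul_eq_one_right hdet
    rw [R.f_ne (by rw [e3, hd]; exact neg_ne_zero.2 (inv_ne_zero ha)), R.f_zero hc, e1, e3, e4, hc, zero_div,
      R.u_zero, mul_one, hd, show -(-(g.1 0 0)⁻¹)⁻¹ = g.1 0 0 by rw [inv_neg, neg_neg, inv_inv],
      show -g.1 0 1 / -(g.1 0 0)⁻¹ = g.1 0 0 ^ 2 * (g.1 0 1 / g.1 0 0) by field_simp, R.h_u ha,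
      mul_assoc, ← R.W_eq]
  by_cases hd : g.1 1 1 = 0
  · rw [R.f_zero (by rw [e3, hd, neg_zero]), R.f_ne hc, e1, e2, hd, zero_div, R.u_zero, mul_one,
      mul_assoc, R.W_eq, mul_assoc (R.h _), R.WW_eq, ← R.h_mul (neg_ne_zero.2 (inv_ne_zero hc))
      (neg_ne_zero.2 one_ne_zero), neg_mul_neg, mul_one]
    rw [hd, mul_zero, zero_sub] at hdet
    have hb : -g.1 0 1 = (g.1 1 0)⁻¹ := eq_inv_of_mul_eq_one_left (by linear_combination hdet)
    rw [hb, R.h_u (inv_ne_zero hc)]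
    congr 2
    field_simp
  have key : R.W (-(g.1 1 0)⁻¹) * R.W (g.1 1 1 / g.1 1 0) * R.W 1 = R.W (g.1 1 1)⁻¹ := by
    have hx : g.1 1 1 / g.1 1 0 ≠ 0 := div_ne_zero hd hc
    have hci : -(g.1 1 0)⁻¹ ≠ 0 := neg_ne_zero.2 (inv_ne_zero hc)
    rw [R.W_eq (-(g.1 1 0)⁻¹), mul_assoc (R.h _), R.W_one_W hx, R.W_eq (g.1 1 1 / g.1 1 0)⁻¹,
      R.W_eq (g.1 1 1)⁻¹]
    calc R.h (-(g.1 1 0)⁻¹) * (R.h (g.1 1 1 / g.1 1 0)⁻¹ * R.W 1 * R.W 1) * R.W 1
        = R.h (-(g.1 1 0)⁻¹) * R.h (g.1 1 1 / g.1 1 0)⁻¹ * (R.W 1 * R.W 1) * R.W 1 := by group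
      _ = _ := by
          rw [R.WW_eq, ← R.h_mul hci (inv_ne_zero hx), ← R.h_mul (mul_ne_zero hci (inv_ne_zero hx))
            (neg_ne_zero.2 one_ne_zero)]
          congr 2
          field_simp
  rw [R.f_ne (by rw [e3]; exact neg_ne_zero.2 hd), R.f_ne hc, e1, e3, e4,
    show -(-g.1 1 1)⁻¹ = (g.1 1 1)⁻¹ by rw [inv_neg, neg_neg], ← key]
  set x := g.1 1 1 / g.1 1 0 with hx
  have hx0 : x ≠ 0 := div_ne_zero hd hc
  have hux : R.u x = R.l x⁻¹ * R.W x * R.l x⁻¹ := by rw [R.W_braid hx0, R.l_neg]; group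
  have h1 : R.W (-(g.1 1 0)⁻¹) * R.l x⁻¹ =
      R.u (-((-(g.1 1 0)⁻¹) ^ 2 * x⁻¹)) * R.W (-(g.1 1 0)⁻¹) := R.W_l (neg_ne_zero.2 (inv_ne_zero hc)) _
  have h2 : R.l x⁻¹ * R.W 1 = R.W 1 * R.u (-x⁻¹) := by
    rw [R.W_u one_ne_zero, one_pow, div_one, neg_neg]
  calc R.u (-g.1 0 1 / -g.1 1 1) * (R.W (-(g.1 1 0)⁻¹) * R.W x * R.W 1) * R.u (g.1 1 0 / -g.1 1 1)
      = R.u (g.1 0 0 / g.1 1 0) * R.u (-((-(g.1 1 0)⁻¹) ^ 2 * x⁻¹)) *
          (R.W (-(g.1 1 0)⁻¹) * R.W x * R.W 1) * R.u (-x⁻¹) := by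
        rw [← R.u_add]
        congr 1
        · congr 2
          rw [hx]
          field_simp
          linear_combination -hdet
        · congr 1
          rw [hx]
          field_simp
    _ = R.u (g.1 0 0 / g.1 1 0) * (R.u (-((-(g.1 1 0)⁻¹) ^ 2 * x⁻¹)) * R.W (-(g.1 1 0)⁻¹)) * R.W x *
          (R.W 1 * R.u (-x⁻¹)) := by group
    _ = _ := by rw [← h1, ← h2, hux]; group

lemma mem_closure_gen (g : Matrix.SpecialLinearGroup (Fin 2) F) :
    g ∈ Submonoid.closure (Set.range (U (F := F)) ∪ {J F}) := by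
  set M := Submonoid.closure (Set.range (U (F := F)) ∪ {J F})
  have hU : ∀ x : F, U x ∈ M := fun x => Submonoid.subset_closure (Or.inl ⟨x, rfl⟩)
  have hJ : J F ∈ M := Submonoid.subset_closure (Or.inr rfl)
  have hne : ∀ g : Matrix.SpecialLinearGroup (Fin 2) F, g.1 1 0 ≠ 0 → g ∈ M := by
    intro g hc
    set t := -(g.1 1 0)⁻¹ with ht
    have hW : g = U (g.1 0 0 / g.1 1 0) * (U t * (J F * U t⁻¹ * J F * J F * J F) * U t) *
        U (g.1 1 1 / g.1 1 0) := by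
      apply Subtype.ext
      show g.1 = !![1, g.1 0 0 / g.1 1 0; 0, 1] * (!![1, t; 0, 1] *
        (!![0, 1; -1, 0] * !![1, t⁻¹; 0, 1] * !![0, 1; -1, 0] * !![0, 1; -1, 0] * !![0, 1; -1, 0]) *
        !![1, t; 0, 1]) * !![1, g.1 1 1 / g.1 1 0; 0, 1]
      have hdet := det_eq g
      ext i j
      fin_cases i <;> fin_cases j <;> simp [Matrix.mul_apply, Fin.sum_univ_two, ht] <;> field_simp <;>
        first | ring1 | linear_combination hdet | linear_combination -hdet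
    rw [hW]
    exact M.mul_mem (M.mul_mem (hU _) (M.mul_mem (M.mul_mem (hU _)
      (M.mul_mem (M.mul_mem (M.mul_mem (M.mul_mem hJ (hU _)) hJ) hJ) hJ)) (hU _))) (hU _)
  by_cases hc : g.1 1 0 = 0
  · have hd : g.1 1 1 ≠ 0 := fun e => by
      have := det_eq g
      rw [e, hc] at this
      simp at this
    have h1 := hne (g * J F) (by rw [(mul_J_val g).2.2.1]; exact neg_ne_zero.2 hd)
    have hJ4 : J F * (J F * J F * J F) = 1 := by
      apply Subtype.ext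
      show (!![0, 1; -1, 0] : Matrix (Fin 2) (Fin 2) F) * (!![0, 1; -1, 0] * !![0, 1; -1, 0] * !![0, 1; -1, 0]) = 1
      ext i j
      fin_cases i <;> fin_cases j <;> simp [Matrix.mul_apply, Fin.sum_univ_two]
    have := M.mul_mem h1 (M.mul_mem (M.mul_mem hJ hJ) hJ)
    rwa [mul_assoc, hJ4, mul_one] at this
  · exact hne g hc

lemma f_one : R.f 1 = 1 := by
  rw [R.f_zero (show (1 : Matrix.SpecialLinearGroup (Fin 2) F).1 1 0 = 0 from rfl)]
  show R.h 1 * R.u (0 / 1) = 1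
  rw [zero_div, R.h_one, R.u_zero, mul_one]

/-- The homomorphism. -/
noncomputable def hom : Matrix.SpecialLinearGroup (Fin 2) F →* Y where
  toFun := R.f
  map_one' := f_one R
  map_mul' := by
    intro g g'
    have h : g' ∈ Submonoid.closure (Set.range (U (F := F)) ∪ {J F}) := mem_closure_gen g'
    induction h using Submonoid.closure_induction generalizing g with
    | mem z hz =>
      have key : ∀ g, R.f (g * z) = R.f g * R.f (1 * z) := by
        intro g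
        rcases hz with ⟨x, rfl⟩ | hz
        · rw [f_mul_U, f_mul_U, f_one, one_mul]
        · rw [Set.mem_singleton_iff] at hz
          rw [hz, f_mul_J, f_mul_J, f_one, one_mul]
      rw [key, one_mul]
    | one => rw [mul_one, f_one, mul_one]
    | mul y z _ _ hy hz => rw [← mul_assoc, hz, hy, hz y, mul_assoc]

lemma hom_U (x : F) : hom R (U x) = R.u x := by
  show R.f (U x) = _
  rw [← one_mul (U x), f_mul_U, f_one, one_mul]

lemma hom_J : hom R (J F) = R.W 1 := by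
  show R.f (J F) = _
  rw [← one_mul (J F), f_mul_J, f_one, one_mul]

lemma range_hom : (hom R).range = Subgroup.closure (Set.range R.u ∪ Set.range R.l) := by
  refine le_antisymm ?_ ((Subgroup.closure_le _).2 ?_)
  · rintro _ ⟨g, rfl⟩
    have h := mem_closure_gen g
    induction h using Submonoid.closure_induction with
    | mem z hz =>
      rcases hz with ⟨x, rfl⟩ | hz
      · rw [hom_U]; exact Subgroup.subset_closure (Or.inl ⟨x, rfl⟩)
      · rw [Set.mem_singleton_iff] at hz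
        rw [hz, hom_J]
        exact mul_mem (mul_mem (Subgroup.subset_closure (Or.inl ⟨1, rfl⟩))
          (Subgroup.subset_closure (Or.inr ⟨-1⁻¹, rfl⟩))) (Subgroup.subset_closure (Or.inl ⟨1, rfl⟩))
    | one => rw [map_one]; exact one_mem _
    | mul y z _ _ hy hz => rw [map_mul]; exact mul_mem hy hz
  · rintro _ (⟨x, rfl⟩ | ⟨y, rfl⟩)
    · exact ⟨U x, hom_U R x⟩
    · refine ⟨J F * U (-y) * (J F)⁻¹, ?_⟩
      rw [map_mul, map_mul, map_inv, hom_U, hom_J, R.W_u one_ne_zero, one_pow, div_one, neg_neg,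
        mul_inv_cancel_right]

/-- Separation of the two subgroups forces a central kernel. -/
lemma ker_hom_le (h1 : ∀ x y : F, R.u x = R.l y → x = 0)
    (h2 : ∀ x : F, Commute (R.u x) (R.l 1) → x = 0) :
    (hom R).ker ≤ Subgroup.center (Matrix.SpecialLinearGroup (Fin 2) F) := by
  intro g hg
  have hg' : R.f g = 1 := hg
  have hu0 : ∀ x : F, R.u x = 1 → x = 0 := fun x hx => h1 x 0 (by rw [R.l_zero]; exact hx)
  have huinj : ∀ x y : F, R.u x = R.u y → x = y := fun x y e =>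
    sub_eq_zero.1 (hu0 _ (by rw [sub_eq_add_neg, R.u_add, R.u_neg, e, mul_inv_cancel]))
  have ucomm : ∀ x y : F, Commute (R.u x) (R.u y) := fun x y => by
    show _ = _
    rw [← R.u_add, ← R.u_add, add_comm]
  by_cases hc : g.1 1 0 = 0
  swap
  · exfalso
    rw [R.f_ne hc] at hg'
    set t := -(g.1 1 0)⁻¹
    have ht : t ≠ 0 := neg_ne_zero.2 (inv_ne_zero hc)
    have hW : R.W t = R.u (-(g.1 0 0 / g.1 1 0) + -(g.1 1 1 / g.1 1 0)) := by
      rw [R.u_add, R.u_neg, R.u_neg]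
      calc R.W t = (R.u (g.1 0 0 / g.1 1 0))⁻¹ *
            (R.u (g.1 0 0 / g.1 1 0) * R.W t * R.u (g.1 1 1 / g.1 1 0)) * (R.u (g.1 1 1 / g.1 1 0))⁻¹ := by group
        _ = _ := by rw [hg', mul_one]
    have h3 := R.W_u ht 1
    rw [hW, (ucomm _ 1).eq] at h3
    exact one_ne_zero (h1 1 _ (mul_right_cancel h3))
  have hdet := det_eq g
  rw [hc, mul_zero, sub_zero] at hdet
  set a := g.1 0 0 with hadef
  have ha : a ≠ 0 := left_ne_zero_of_mul_eq_one hdet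
  rw [R.f_zero hc] at hg'
  have hh : R.h a = R.u (-(g.1 0 1 / a)) := by rw [R.u_neg]; exact eq_inv_of_mul_eq_one_left hg'
  have h3 := R.h_u ha 1
  rw [hh, (ucomm _ 1).eq, mul_one] at h3
  have hsq : a ^ 2 = 1 := (huinj _ _ (mul_right_cancel h3)).symm
  have h4 := R.h_l ha 1
  rw [hh, hsq, div_one] at h4
  have hb : g.1 0 1 = 0 := by
    have h5 := h2 _ (show Commute _ _ from h4)
    rw [neg_eq_zero, div_eq_zero_iff] at h5
    exact h5.resolve_right ha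
  have hd : g.1 1 1 = a := by
    calc g.1 1 1 = a ^ 2 * g.1 1 1 := by rw [hsq, one_mul]
      _ = a := by rw [pow_two, mul_assoc, hdet, mul_one]
  rw [Subgroup.mem_center_iff]
  intro k
  apply Subtype.ext
  show k.1 * g.1 = g.1 * k.1
  ext i j
  fin_cases i <;> fin_cases j <;> simp [Matrix.mul_apply, Fin.sum_univ_two, hb, hc, hd, ← hadef] <;> ring

end CfsgLib.SteinbergSL2
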